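import Cfsg.Agent.OrthEight96.Small
import Cfsg.Agent.OrthGeo.NondegAny
import Cfsg.Agent.OrthGeo.TensorTwoSymp

/-! The stabiliser in Omega of a four-dimensional non-degenerate subspace without singular lines, whose
four-dimensional perp has one. -/

set_option autoImplicit false
set_option linter.unusedSectionVars false

namespace CfsgLib.OrthEight96

open Cfsg.Geo Module CfsgLib.OrthGeo
open scoped Matrix MatrixGroups

variable {ι : Type} [Fintype ι] [DecidableEq ι] {F : Type*} [Field F] [Finite F]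
variable {Q : (ι → F) → F} (hQ : IsNondegenerateQuadraticForm Q)
include hQ

omit [Finite F] in
/-- Displacements of one root element inside a non-degenerate subspace. -/
lemma side_of_displacement {U : Submodule F (ι → F)} (hU : ∀ x ∈ U, x ∈ perp hQ U → x = 0) {v z : ι → F}
    (hv0 : v ≠ 0) (hD : ∀ x ∈ U, bform hQ z x • v - bform hQ v x • z - (Q z * bform hQ v x) • v ∈ U) :
    (v ∈ U ∧ z ∈ U) ∨ (v ∈ perp hQ U ∧ z ∈ perp hQ U) ∨
      ∃ l : F, z + (Q z - l) • v ∈ U ∧ z - l • v ∈ perp hQ U := by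
  by_cases hv : v ∈ perp hQ U
  · refine Or.inr (Or.inl ⟨hv, fun x hx => ?_⟩)
    have hvx : bform hQ v x = 0 := by rw [b_symm hQ]; exact hv x hx
    by_contra hc
    have h := hD x hx
    rw [hvx, mul_zero, zero_smul, zero_smul, sub_zero, sub_zero] at h
    rw [b_symm hQ] at hc
    exact hv0 (hU v ((U.smul_mem_iff hc).1 h) hv)
  obtain ⟨x₁, hx₁, hx₁v⟩ := exists_mem_b_ne_zero hQ hv
  obtain ⟨x₀, hx₀, hvx₀⟩ : ∃ x ∈ U, bform hQ v x = 1 :=
    ⟨(bform hQ x₁ v)⁻¹ • x₁, U.smul_mem _ hx₁, by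
      rw [map_smul, smul_eq_mul, b_symm hQ v x₁, inv_mul_cancel₀ hx₁v]⟩
  set l := bform hQ z x₀ with hl
  have hs : z + (Q z - l) • v ∈ U := by
    have h := U.neg_mem (hD x₀ hx₀)
    rw [hvx₀, ← hl, mul_one, one_smul] at h
    convert h using 1
    module
  by_cases hperp : z - l • v ∈ perp hQ U
  · exact Or.inr (Or.inr ⟨l, hs, hperp⟩)
  refine Or.inl ?_
  obtain ⟨x, hx, hxz⟩ := exists_mem_b_ne_zero hQ hperp
  have h : (bform hQ z x - l * bform hQ v x) • v ∈ U := by
    convert U.add_mem (hD x hx) (U.smul_mem (bform hQ v x) hs) using 1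
    module
  have hc : bform hQ z x - l * bform hQ v x ≠ 0 := by
    rw [map_sub, map_smul, smul_eq_mul, b_symm hQ x z, b_symm hQ x v] at hxz
    exact hxz
  have hvU := (U.smul_mem_iff hc).1 h
  exact ⟨hvU, by simpa using U.sub_mem hs (U.smul_mem (Q z - l) hvU)⟩

variable {W : Submodule F (ι → F)}

/-- No overgroup element carries all singular points of the perp out of it. -/
theorem halves_kill (hn : 5 ≤ Fintype.card ι) (hW : ∀ x ∈ W, x ∈ perp hQ W → x = 0) (hWd : finrank F W = 4)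
    (hVd : finrank F (perp hQ W) = 4)
    (hWl : ∀ x ∈ W, ∀ y ∈ W, Q x = 0 → Q y = 0 → bform hQ x y = 0 → y ≠ 0 → x ∈ Submodule.span F {y})
    {L : Submodule F (ι → F)} (hLV : L ≤ perp hQ W) (hL : ∀ x ∈ L, Q x = 0) (hLd : finrank F L = 2)
    (M : Subgroup (GL ι F)) (hPM : subspaceStabilizer W ⊓ omegaGL Q ≤ M) (hMΩ : M ≤ omegaGL Q)
    (g : GL ι F) (hgM : g ∈ M) (hgP : g ∉ subspaceStabilizer W ⊓ omegaGL Q) :
    ¬ ∀ x ∈ M, x ∉ subspaceStabilizer W ⊓ omegaGL Q → ∀ u ∈ perp hQ W, Q u = 0 → u ≠ 0 →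
        (x : Matrix ι ι F) *ᵥ u ∉ perp hQ W := by
  classical
  intro hno
  have := Fintype.ofFinite F
  set V := perp hQ W with hVdef
  have hlines : HasLines hQ V := hasLines_of_line hQ hLV hL hLd
  have htop : W ⊔ V = ⊤ := by
    have h0 : W ⊓ V = ⊥ := (Submodule.eq_bot_iff _).2 fun x hx => hW x hx.1 hx.2
    have h1 := Submodule.finrank_sup_add_finrank_inf_eq W V
    have hsum := finrank_perp_add hQ W
    rw [← hVdef] at hsum
    rw [h0, finrank_bot] at h1
    exact Submodule.eq_top_of_finrank_eq (by rw [finrank_fintype_fun_eq_card]; omega)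
  have hV : ∀ x ∈ V, x ∈ perp hQ V → x = 0 := fun x hx hx' =>
    hW x (by rwa [hVdef, perp_perp hQ] at hx') hx
  have hWV : ∀ p ∈ W, ∀ q ∈ V, bform hQ p q = 0 := fun p hp q hq => hq p hp
  have hgI := omegaGL_le (hMΩ hgM)
  -- the preimage of `V`
  set U : Submodule F (ι → F) := V.comap (Matrix.toLin' (g : Matrix ι ι F)) with hUdef
  have hUmem : ∀ x, x ∈ U ↔ (g : Matrix ι ι F) *ᵥ x ∈ V := fun x => by simp [hUdef, Matrix.toLin'_apply]
  have hnz : ∀ x : ι → F, x ≠ 0 → (g : Matrix ι ι F) *ᵥ x ≠ 0 := fun x hx h0 => hx (by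
    rw [← inv_mulVec_cancel g x, h0, Matrix.mulVec_zero])
  have hUV : ∀ x ∈ U, x ∈ V → Q x = 0 → x = 0 := fun x hx hxV hxQ => by
    by_contra h0
    exact hno g hgM hgP x hxV hxQ h0 ((hUmem x).1 hx)
  have hUd : finrank F U = 4 := by
    have hinj : Function.Injective (Matrix.toLin' ((g⁻¹ : GL ι F) : Matrix ι ι F)) := fun x y hxy => by
      simp only [Matrix.toLin'_apply] at hxy
      rw [← mulVec_inv_cancel g x, hxy, mulVec_inv_cancel]
    have : U = V.map (Matrix.toLin' ((g⁻¹ : GL ι F) : Matrix ι ι F)) := by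
      ext x
      rw [hUmem]
      constructor
      · intro h
        exact ⟨_, h, by rw [Matrix.toLin'_apply, inv_mulVec_cancel]⟩
      · rintro ⟨y, hy, rfl⟩
        rw [Matrix.toLin'_apply, mulVec_inv_cancel]
        exact hy
    rw [this, ← (Submodule.equivMapOfInjective _ hinj _).finrank_eq, hVd]
  have hU : ∀ x ∈ U, x ∈ perp hQ U → x = 0 := by
    intro x hx hx'
    by_contra h0
    refine hnz x h0 (hV _ ((hUmem x).1 hx) fun y hy => ?_)
    obtain ⟨y', rfl⟩ : ∃ y', y = (g : Matrix ι ι F) *ᵥ y' := ⟨_, (mulVec_inv_cancel g y).symm⟩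
    rw [isometry_b hQ hgI]
    exact hx' y' ((hUmem y').2 hy)
  have hUp : finrank F (perp hQ U) = 4 := by
    have h1 := finrank_perp_add hQ U
    have h2 := finrank_perp_add hQ W
    rw [← hVdef] at h2
    omega
  -- elements of the stabiliser fixing a singular vector of `U` stabilise `U`
  have hfix : ∀ h ∈ subspaceStabilizer W ⊓ omegaGL Q, ∀ u ∈ U, Q u = 0 → u ≠ 0 →
      (h : Matrix ι ι F) *ᵥ u = u → ∀ x ∈ U, (h : Matrix ι ι F) *ᵥ x ∈ U := by
    intro h hh u hu huQ hu0 hhu x hx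
    have hyM : g * h * g⁻¹ ∈ M := M.mul_mem (M.mul_mem hgM (hPM hh)) (M.inv_mem hgM)
    have hyv : ∀ z, ((g * h * g⁻¹ : GL ι F) : Matrix ι ι F) *ᵥ ((g : Matrix ι ι F) *ᵥ z) =
        (g : Matrix ι ι F) *ᵥ ((h : Matrix ι ι F) *ᵥ z) := fun z => by
      rw [Units.val_mul, Units.val_mul, ← Matrix.mulVec_mulVec, ← Matrix.mulVec_mulVec, inv_mulVec_cancel]
    have hyP : g * h * g⁻¹ ∈ subspaceStabilizer W ⊓ omegaGL Q := by
      by_contra hyP
      refine hno _ hyM hyP _ ((hUmem u).1 hu) (by rw [mem_isometryGroup.1 hgI, huQ]) (hnz u hu0) ?_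
      rw [hyv, hhu]
      exact (hUmem u).1 hu
    rw [hUmem, ← hyv]
    exact (mem_subspaceStabilizer.1 (mem_stab_perp hQ (omegaGL_le hyP.2) hyP.1) _).1 ((hUmem x).1 hx)
  -- root elements of either half fixing a singular vector of `U`
  have hside : ∀ u ∈ U, Q u = 0 → u ≠ 0 → ∀ v z : ι → F, ((v ∈ W ∧ z ∈ W) ∨ (v ∈ V ∧ z ∈ V)) →
      Q v = 0 → bform hQ v z = 0 → bform hQ v u = 0 → bform hQ z u = 0 → v ≠ 0 →
      (v ∈ U ∧ z ∈ U) ∨ (v ∈ perp hQ U ∧ z ∈ perp hQ U) ∨
        ∃ l : F, z + (Q z - l) • v ∈ U ∧ z - l • v ∈ perp hQ U := by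
    intro u hu huQ hu0 v z hvz hvQ hvz0 hvu hzu hv0
    have hh : eichler hQ hvQ hvz0 ∈ subspaceStabilizer W ⊓ omegaGL Q := by
      refine ⟨mem_subspaceStabilizer_of_le fun x hx => ?_, eichler_mem_omega hQ hn hvQ hvz0⟩
      rcases hvz with ⟨hv, hz⟩ | ⟨hv, hz⟩
      · rw [eichler_mulVec hQ]
        exact W.sub_mem (W.sub_mem (W.add_mem hx (W.smul_mem _ hv)) (W.smul_mem _ hz)) (W.smul_mem _ hv)
      · rw [eichler_fix hQ hvQ hvz0 (by rw [b_symm hQ]; exact hv x hx) (by rw [b_symm hQ]; exact hz x hx)]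
        exact hx
    refine side_of_displacement hQ hU hv0 fun x hx => ?_
    have h := U.sub_mem (hfix _ hh u hu huQ hu0 (eichler_fix hQ hvQ hvz0 hvu hzu) x hx) hx
    rw [eichler_mulVec hQ] at h
    convert h using 1
    module
  -- singular lines of `V` fixed with such a vector are orthogonal to `U`
  have hline : ∀ u ∈ U, Q u = 0 → u ≠ 0 → ∀ v ∈ V, ∀ z ∈ V, Q v = 0 → Q z = 0 → bform hQ v z = 0 →
      bform hQ v u = 0 → bform hQ z u = 0 → v ≠ 0 → z ∉ Submodule.span F {v} → v ∈ perp hQ U := by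
    intro u hu huQ hu0 v hv z hz hvQ hzQ hvz hvu hzu hv0 hzN
    rcases hside u hu huQ hu0 v z (Or.inr ⟨hv, hz⟩) hvQ hvz hvu hzu hv0 with ⟨h, -⟩ | ⟨h, -⟩ | ⟨l, h1, h2⟩
    · exact absurd (hUV v h hv hvQ) hv0
    · exact h
    · rw [hzQ, zero_sub, neg_smul, ← sub_eq_add_neg] at h1
      refine absurd ?_ hzN
      exact Submodule.mem_span_singleton.2 ⟨l, (sub_eq_zero.1 (hU _ h1 h2)).symm⟩
  -- no singular vector of `U` lies in `W`
  have hUW : ∀ u ∈ U, u ∈ W → Q u = 0 → u = 0 := by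
    intro u hu huW huQ
    by_contra hu0
    have hVu : ∀ x ∈ V, bform hQ x u = 0 := fun x hx => by rw [b_symm hQ]; exact hWV u huW x hx
    have hVU : V ≤ perp hQ U := fun x hx => by
      obtain ⟨a, ha, b, hb, haQ, hbQ, rfl⟩ := exists_two_singular hQ hV (by omega) hx
      have key : ∀ a ∈ V, Q a = 0 → a ∈ perp hQ U := fun a ha haQ => by
        by_cases ha0 : a = 0
        · rw [ha0]; exact zero_mem _
        obtain ⟨f, hf, hfQ, haf, hfN⟩ := hlines a ha haQ ha0
        exact hline u hu huQ hu0 a ha f hf haQ hfQ haf (hVu a ha) (hVu f hf) ha0 hfN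
      exact Submodule.add_mem _ (key a ha haQ) (key b hb hbQ)
    have hUeq : U = W := by
      rw [← perp_perp hQ U, ← Submodule.eq_of_le_of_finrank_le hVU (by omega), hVdef, perp_perp hQ]
    -- then `W` would contain a singular line
    obtain ⟨a, haL, ha0⟩ := Submodule.exists_mem_ne_zero_of_ne_bot (p := L) fun h => by
      rw [h, finrank_bot] at hLd; omega
    obtain ⟨b, hbL, hbN⟩ : ∃ b ∈ L, b ∉ Submodule.span F {a} := by
      refine SetLike.not_le_iff_exists.1 fun hle => ?_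
      have := Submodule.finrank_mono hle
      rw [finrank_span_singleton ha0] at this
      omega
    have hback : ∀ x ∈ L, ((g⁻¹ : GL ι F) : Matrix ι ι F) *ᵥ x ∈ W := fun x hx => by
      rw [← hUeq, hUmem, mulVec_inv_cancel]; exact hLV hx
    have hgI' := inv_mem hgI
    have h1 := hWl _ (hback b hbL) _ (hback a haL) (by rw [mem_isometryGroup.1 hgI', hL b hbL])
      (by rw [mem_isometryGroup.1 hgI', hL a haL])
      (by rw [isometry_b hQ hgI']; exact b_eq_zero_of_singular hQ hL hbL haL)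
      (fun h0 => ha0 (by rw [← mulVec_inv_cancel g a, h0, Matrix.mulVec_zero]))
    obtain ⟨t, ht⟩ := Submodule.mem_span_singleton.1 h1
    refine hbN (Submodule.mem_span_singleton.2 ⟨t, ?_⟩)
    have := congrArg ((g : Matrix ι ι F) *ᵥ ·) ht
    simpa [Matrix.mulVec_smul, mulVec_inv_cancel] using this
  obtain ⟨u, hu, hu0, huQ⟩ := exists_singular hQ (S := U) (by omega)
  obtain ⟨p, hp, q, hq, hpq⟩ := Submodule.mem_sup.1 (htop ▸ Submodule.mem_top : u ∈ W ⊔ V)
  have hpV : ∀ x ∈ V, bform hQ x u = bform hQ x q := fun x hx => by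
    rw [← hpq, map_add, b_symm hQ x p, hWV p hp x hx, zero_add]
  have hpW : ∀ x ∈ W, bform hQ x u = bform hQ x p := fun x hx => by
    rw [← hpq, map_add, hWV x hx q hq, add_zero]
  have hsumQ : Q p + Q q = 0 := by
    rw [← hpq, q_add hQ, hWV p hp q hq, add_zero] at huQ
    exact huQ
  have hq0 : q ≠ 0 := fun h => hu0 (hUW u hu (by rw [← hpq, h, add_zero]; exact hp) huQ)
  have hp0 : p ≠ 0 := fun h => hu0 (hUV u hu (by rw [← hpq, h, zero_add]; exact hq) huQ)
  have huperp : ∀ x, x ∈ perp hQ U → bform hQ x u = 0 := fun x hx => by rw [b_symm hQ]; exact hx u hu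
  by_cases hqQ : Q q = 0
  · -- a singular component
    have hpQ : Q p = 0 := by linear_combination hsumQ - hqQ
    obtain ⟨f, hf, hfQ, hqf, hfN⟩ := hlines q hq hqQ hq0
    have hqU : q ∈ perp hQ U := hline u hu huQ hu0 q hq f hf hqQ hfQ hqf
      (by rw [hpV q hq, b_self_eq_zero hQ hqQ]) (by rw [hpV f hf, b_symm hQ, hqf]) hq0 hfN
    have hpx : ∀ x ∈ U, bform hQ p x = bform hQ u x := fun x hx => by
      rw [← hpq, map_add, LinearMap.add_apply, b_symm hQ q x, hqU x hx, add_zero]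
    obtain ⟨z, ⟨hzW, hzp⟩, hzN⟩ : ∃ z ∈ W ⊓ perp hQ (Submodule.span F {p}), z ∉ Submodule.span F {p} := by
      refine SetLike.not_le_iff_exists.1 fun hle => ?_
      have h1 := Submodule.finrank_mono hle
      have h2 := finrank_le_inf_perp hQ W (Submodule.span F {p})
      rw [finrank_span_singleton hp0] at h1 h2
      omega
    obtain ⟨z', hz'W, hz'p, hzz'⟩ := exists_b_one_mem hQ (S := W) (T := Submodule.span F {p}) (v := z) (by
      intro hm
      obtain ⟨t, ht, w, hw, e⟩ := Submodule.mem_sup.1 hm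
      have htW : t ∈ W := (Submodule.span_singleton_le_iff_mem _ _).2 hp ht
      have hw0 : w = 0 := hW w (by rw [eq_sub_of_add_eq' e]; exact W.sub_mem hzW htW) hw
      rw [hw0, add_zero] at e
      exact hzN (e ▸ ht))
    have key : ∀ z ∈ W, bform hQ p z = 0 → ∃ l : F, z - l • p ∈ perp hQ U ∧ z + (Q z - l) • p ∈ U := by
      intro z hz hpz
      rcases hside u hu huQ hu0 p z (Or.inl ⟨hp, hz⟩) hpQ hpz (by rw [hpW p hp, b_self_eq_zero hQ hpQ])
        (by rw [hpW z hz, b_symm hQ, hpz]) hp0 with ⟨h, -⟩ | ⟨h, -⟩ | ⟨l, h1, h2⟩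
      · exact absurd (hUV q (by simpa [← hpq] using U.sub_mem hu h) hq hqQ) hq0
      · refine absurd (hU u hu fun x hx => ?_) hu0
        rw [b_symm hQ, ← hpx x hx, b_symm hQ]; exact h x hx
      · exact ⟨l, h2, h1⟩
    obtain ⟨l, hl, -⟩ := key z hzW ((mem_perp_span_singleton hQ).1 hzp)
    obtain ⟨l', -, hl'⟩ := key z' hz'W ((mem_perp_span_singleton hQ).1 hz'p)
    have h := hl _ hl'
    simp only [map_add, map_sub, map_smul, LinearMap.add_apply, LinearMap.smul_apply, smul_eq_mul,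
      b_symm hQ z' z, hzz', b_symm hQ z' p, (mem_perp_span_singleton hQ).1 hz'p,
      (mem_perp_span_singleton hQ).1 hzp, b_self_eq_zero hQ hpQ] at h
    simp at h
  -- both components are non-singular
  have hpQ : Q p ≠ 0 := fun h => hqQ (by linear_combination hsumQ - h)
  have hdata : ∀ (X : Submodule F (ι → F)), (∀ x ∈ X, x ∈ perp hQ X → x = 0) → finrank F X = 4 →
      ∀ c ∈ X, Q c ≠ 0 → ∃ v ∈ X, ∃ v' ∈ X, ∃ w ∈ X, Q v = 0 ∧ Q v' = 0 ∧ bform hQ v v' = 1 ∧
        bform hQ v c = 0 ∧ bform hQ v' c = 0 ∧ bform hQ w c = 0 ∧ bform hQ w v = 0 ∧ bform hQ w v' = 0 ∧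
        w ≠ 0 := by
    intro X hX hXd c hc hcQ
    obtain ⟨v, ⟨hvX, hvc⟩, hv0, hvQ⟩ := exists_singular hQ (S := X ⊓ perp hQ (Submodule.span F {c})) (by
      have := finrank_le_inf_perp hQ X (Submodule.span F {c})
      have h4 : finrank F (Submodule.span F ({c} : Set (ι → F))) ≤ 1 := (finrank_span_le_card _).trans (by simp)
      omega)
    replace hvc := (mem_perp_span_singleton hQ).1 hvc
    obtain ⟨y, hy, hyc, hvy⟩ := exists_b_one_mem hQ (S := X) (T := Submodule.span F {c}) (v := v) (by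
      intro hm
      obtain ⟨t, ht, w, hw, e⟩ := Submodule.mem_sup.1 hm
      have htX : t ∈ X := (Submodule.span_singleton_le_iff_mem _ _).2 hc ht
      have hw0 : w = 0 := hX w (by rw [eq_sub_of_add_eq' e]; exact X.sub_mem hvX htX) hw
      rw [hw0, add_zero] at e
      obtain ⟨k, hk⟩ := Submodule.mem_span_singleton.1 ht
      rw [← e, ← hk, q_smul hQ] at hvQ
      exact hv0 (by rw [← e, ← hk, (pow_eq_zero_iff two_ne_zero).1 ((mul_eq_zero.1 hvQ).resolve_right hcQ),
        zero_smul]))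
    replace hyc := (mem_perp_span_singleton hQ).1 hyc
    set v' := y - Q y • v with hv'
    have hvv' : bform hQ v v' = 1 := by
      rw [hv', map_sub, map_smul, hvy, b_self_eq_zero hQ hvQ, smul_zero, sub_zero]
    have hv'c : bform hQ v' c = 0 := by
      rw [hv', map_sub, map_smul, LinearMap.sub_apply, LinearMap.smul_apply, b_symm hQ y c, hyc,
        b_symm hQ v c, hvc]; simp
    obtain ⟨w, ⟨hwX, hwc, hwv, hwv'⟩, hw0⟩ : ∃ w ∈ X ⊓ (perp hQ (Submodule.span F {c}) ⊓
        (perp hQ (Submodule.span F {v}) ⊓ perp hQ (Submodule.span F {v'}))), w ≠ 0 := by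
      refine Submodule.exists_mem_ne_zero_of_ne_bot fun h => ?_
      rw [← perp_sup hQ, ← perp_sup hQ] at h
      have h1 := finrank_le_inf_perp hQ X (Submodule.span F {c} ⊔ (Submodule.span F {v} ⊔ Submodule.span F {v'}))
      have h2 := Submodule.finrank_sup_add_finrank_inf_eq (Submodule.span F {c})
        (Submodule.span F {v} ⊔ Submodule.span F {v'})
      have h3 := finrank_span_pair_le hQ v v'
      have h4 : finrank F (Submodule.span F ({c} : Set (ι → F))) ≤ 1 := (finrank_span_le_card _).trans (by simp)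
      rw [h, finrank_bot] at h1
      omega
    refine ⟨v, hvX, v', X.sub_mem hy (X.smul_mem _ hvX), w, hwX, hvQ, ?_, hvv', by rwa [b_symm hQ], hv'c,
      ?_, ?_, ?_, hw0⟩
    · rw [hv', q_sub hQ, q_smul hQ, hvQ, map_smul, b_symm hQ y v, hvy, smul_eq_mul]; ring
    · rw [b_symm hQ]; exact (mem_perp_span_singleton hQ).1 hwc
    · rw [b_symm hQ]; exact (mem_perp_span_singleton hQ).1 hwv
    · rw [b_symm hQ]; exact (mem_perp_span_singleton hQ).1 hwv'
  -- no singular vector of either half lies in `U`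
  have hout : ∀ v, (v ∈ W ∨ v ∈ V) → Q v = 0 → v ≠ 0 → v ∉ U := fun v hv hvQ hv0 hvU =>
    hv0 (hv.elim (fun h => hUW v hvU h hvQ) fun h => hUV v hvU h hvQ)
  rcases Nat.lt_or_ge 2 (Fintype.card F) with hF | hF
  · -- at least three scalars
    obtain ⟨k, -, hk⟩ := Finset.exists_mem_notMem_of_card_lt_card (s := ({0, 1} : Finset F)) (t := Finset.univ)
      (by rw [Finset.card_univ]; exact lt_of_le_of_lt Finset.card_le_two hF)
    simp only [Finset.mem_insert, Finset.mem_singleton, not_or] at hk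
    have hperp : ∀ v z, ((v ∈ W ∧ z ∈ W) ∨ (v ∈ V ∧ z ∈ V)) → Q v = 0 → bform hQ v z = 0 → bform hQ v u = 0 →
        bform hQ z u = 0 → v ≠ 0 → z ∉ Submodule.span F {v} → v ∈ perp hQ U ∧ z ∈ perp hQ U := by
      intro v z hvz hvQ hvz0 hvu hzu hv0 hzN
      have hvU := hout v (hvz.imp And.left And.left) hvQ hv0
      rcases hside u hu huQ hu0 v z hvz hvQ hvz0 hvu hzu hv0 with ⟨h, -⟩ | h | ⟨l, h1, h2⟩
      · exact absurd h hvU
      · exact h
      rcases hside u hu huQ hu0 v (k • z) (hvz.imp (fun h => ⟨h.1, W.smul_mem k h.2⟩)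
        (fun h => ⟨h.1, V.smul_mem k h.2⟩)) hvQ (by rw [map_smul, hvz0, smul_zero]) hvu
        (by rw [map_smul, LinearMap.smul_apply, hzu, smul_zero]) hv0 with ⟨h, -⟩ | h | ⟨m, h3, h4⟩
      · exact absurd h hvU
      · exact ⟨h.1, (Submodule.smul_mem_iff _ hk.1).1 h.2⟩
      exfalso
      have hv1 : v ∉ perp hQ U := fun h => by
        have hz : z ∈ perp hQ U := by simpa using Submodule.add_mem _ h2 (Submodule.smul_mem _ l h)
        exact hzN (Submodule.mem_span_singleton.2 ⟨-(Q z - l), by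
          rw [neg_smul, neg_eq_iff_add_eq_zero, add_comm]
          exact hU _ h1 (Submodule.add_mem _ hz (Submodule.smul_mem _ _ h))⟩)
      have hm : m = k * l := by
        by_contra hne
        refine hv1 ((Submodule.smul_mem_iff _ (sub_ne_zero.2 hne)).1 ?_)
        convert Submodule.sub_mem _ (Submodule.smul_mem _ k h2) h4 using 1
        module
      rw [hm, q_smul hQ] at h3
      have h5 : (k * (k - 1) * Q z) • v ∈ U := by
        convert U.sub_mem h3 (U.smul_mem k h1) using 1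
        module
      by_cases hzQ : Q z = 0
      · rw [hzQ, zero_sub, neg_smul, ← sub_eq_add_neg] at h1
        exact hzN (Submodule.mem_span_singleton.2 ⟨l, (sub_eq_zero.1 (hU _ h1 h2)).symm⟩)
      · exact hvU ((U.smul_mem_iff (mul_ne_zero (mul_ne_zero hk.1 (sub_ne_zero.2 hk.2)) hzQ)).1 h5)
    have hthree : ∀ X : Submodule F (ι → F), (X = W ∨ X = V) → (∀ x ∈ X, x ∈ perp hQ X → x = 0) →
        finrank F X = 4 → ∀ c ∈ X, Q c ≠ 0 → (∀ x ∈ X, bform hQ x u = bform hQ x c) →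
        3 ≤ finrank F ↥(X ⊓ perp hQ U) := by
      intro X hXWV hX hXd c hc hcQ hXu
      obtain ⟨v, hv, v', hv', w, hw, hvQ, hv'Q, hvv', hvc, hv'c, hwc, hwv, hwv', hw0⟩ := hdata X hX hXd c hc hcQ
      have hv0 : v ≠ 0 := fun h => by rw [h, map_zero, LinearMap.zero_apply] at hvv'; exact zero_ne_one hvv'
      have hv'0 : v' ≠ 0 := fun h => by rw [h, map_zero] at hvv'; exact zero_ne_one hvv'
      have hor : ∀ a ∈ X, ∀ b ∈ X, (a ∈ W ∧ b ∈ W) ∨ (a ∈ V ∧ b ∈ V) := fun a ha b hb => by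
        rcases hXWV with rfl | rfl
        · exact Or.inl ⟨ha, hb⟩
        · exact Or.inr ⟨ha, hb⟩
      have hwN : ∀ a : ι → F, Q a = 0 → bform hQ w a = 0 → ∀ b, bform hQ w b = 0 → bform hQ a b ≠ 0 →
          w ∉ Submodule.span F {a} := fun a _ _ b hwb hab hm => by
        obtain ⟨t, ht⟩ := Submodule.mem_span_singleton.1 hm
        rw [← ht, map_smul, LinearMap.smul_apply, smul_eq_mul] at hwb
        exact hw0 (by rw [← ht, (mul_eq_zero.1 hwb).resolve_right hab, zero_smul])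
      obtain ⟨hvP, hwP⟩ := hperp v w (hor v hv w hw) hvQ (by rw [b_symm hQ, hwv]) (by rw [hXu v hv, hvc])
        (by rw [hXu w hw, hwc]) hv0 (hwN v hvQ hwv v' hwv' (by rw [hvv']; exact one_ne_zero))
      obtain ⟨hv'P, -⟩ := hperp v' w (hor v' hv' w hw) hv'Q (by rw [b_symm hQ, hwv']) (by rw [hXu v' hv', hv'c])
        (by rw [hXu w hw, hwc]) hv'0 (hwN v' hv'Q hwv' v hwv (by rw [b_symm hQ, hvv']; exact one_ne_zero))
      have hle : Submodule.span F (Set.range ![v, v', w]) ≤ X ⊓ perp hQ U := by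
        rw [Submodule.span_le, Set.range_subset_iff]
        intro i
        fin_cases i
        · exact ⟨hv, hvP⟩
        · exact ⟨hv', hv'P⟩
        · exact ⟨hw, hwP⟩
      refine le_trans (le_of_eq ?_) (Submodule.finrank_mono hle)
      rw [finrank_span_eq_card (R := F) ?_]
      · simp
      rw [Fintype.linearIndependent_iff]
      intro a ha
      simp only [Fin.sum_univ_three, Matrix.cons_val_zero, Matrix.cons_val_one, Matrix.cons_val] at ha
      have e1 : a 1 = 0 := by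
        have := congrArg (bform hQ v) ha
        simpa [-bform_apply, b_self_eq_zero hQ hvQ, hvv', b_symm hQ v w, hwv] using this
      have e0 : a 0 = 0 := by
        have := congrArg (bform hQ v') ha
        simpa [-bform_apply, b_self_eq_zero hQ hv'Q, b_symm hQ v' v, hvv', b_symm hQ v' w, hwv'] using this
      rw [e0, e1, zero_smul, zero_smul, zero_add, zero_add] at ha
      intro i
      fin_cases i
      · exact e0
      · exact e1
      · exact (smul_eq_zero.1 ha).resolve_right hw0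
    have h1 := hthree W (Or.inl rfl) hW hWd p hp hpQ hpW
    have h2 := hthree V (Or.inr rfl) hV hVd q hq hqQ hpV
    have h3 := Submodule.finrank_sup_add_finrank_inf_eq (W ⊓ perp hQ U) (V ⊓ perp hQ U)
    have h4 : (W ⊓ perp hQ U) ⊓ (V ⊓ perp hQ U) = ⊥ :=
      (Submodule.eq_bot_iff _).2 fun x hx => hW x hx.1.1 hx.2.1
    have h5 := Submodule.finrank_mono (sup_le (inf_le_right : W ⊓ perp hQ U ≤ perp hQ U)
      (inf_le_right : V ⊓ perp hQ U ≤ perp hQ U))
    rw [h4, finrank_bot] at h3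
    omega
  -- two scalars
  have hF2 : Fintype.card F = 2 := le_antisymm hF Fintype.one_lt_card
  have h01 : ∀ x : F, x = 0 ∨ x = 1 := two_elements hF2
  have h2 : (2 : F) = 0 := two_eq_zero hF2
  have hneg : ∀ x : F, -x = x := fun x => by linear_combination (-x) * h2
  have hone : ∀ x : F, x ≠ 0 → x = 1 := fun x hx => (h01 x).resolve_left hx
  have hkey : ∀ c d : ι → F, ((c ∈ W ∧ d ∈ V) ∨ (c ∈ V ∧ d ∈ W)) → c + d = u → Q c ≠ 0 → ∀ v,
      ((v ∈ W ∧ c ∈ W) ∨ (v ∈ V ∧ c ∈ V)) → Q v = 0 → v ≠ 0 → bform hQ v c = 0 → bform hQ v u = 0 →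
      (c ∈ perp hQ U ∧ d ∉ perp hQ U) ∨ (c ∈ U ∧ c + v ∈ perp hQ U) := by
    intro c d hcd hcu hcQ v hvc hvQ hv0 hvc0 hvu
    have hcuu : bform hQ c u = 0 := by
      rw [← hcu, map_add, b_self hQ, h2, zero_mul, zero_add]
      rcases hcd with ⟨h, h'⟩ | ⟨h, h'⟩
      · exact hWV c h d h'
      · rw [b_symm hQ]; exact hWV d h' c h
    have hd : c ∈ perp hQ U → d ∉ perp hQ U := fun hc hd => hu0 (hU u hu (hcu ▸ Submodule.add_mem _ hc hd))
    rcases hside u hu huQ hu0 v c hvc hvQ hvc0 hvu hcuu hv0 with ⟨h, -⟩ | ⟨-, h⟩ | ⟨l, h1, h1'⟩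
    · exact absurd h (hout v (hvc.imp And.left And.left) hvQ hv0)
    · exact Or.inl ⟨h, hd h⟩
    · rw [hone _ hcQ] at h1
      rcases h01 l with rfl | rfl
      · rw [zero_smul, sub_zero] at h1'
        exact Or.inl ⟨h1', hd h1'⟩
      · rw [sub_self, zero_smul, add_zero] at h1
        refine Or.inr ⟨h1, ?_⟩
        rw [one_smul] at h1'
        have h11 : c - v = c + v := by
          rw [sub_eq_add_neg, ← neg_one_smul F v, hneg, one_smul]
        rwa [h11] at h1'
  obtain ⟨v, hv, v', hv', w, -, hvQ, hv'Q, hvv', hvc, hv'c, -⟩ := hdata W hW hWd p hp hpQ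
  obtain ⟨t, ht, t', ht', s, -, htQ, ht'Q, htt', htc, ht'c, -⟩ := hdata V hV hVd q hq hqQ
  have hnzero : ∀ {a b : ι → F}, bform hQ a b = 1 → a ≠ 0 ∧ b ≠ 0 := fun h =>
    ⟨fun e => by rw [e, map_zero, LinearMap.zero_apply] at h; exact zero_ne_one h,
      fun e => by rw [e, map_zero] at h; exact zero_ne_one h⟩
  have kW : ∀ x ∈ W, Q x = 0 → x ≠ 0 → bform hQ x p = 0 →
      (p ∈ perp hQ U ∧ q ∉ perp hQ U) ∨ (p ∈ U ∧ p + x ∈ perp hQ U) := fun x hx hxQ hx0 hxp =>
    hkey p q (Or.inl ⟨hp, hq⟩) hpq hpQ x (Or.inl ⟨hx, hp⟩) hxQ hx0 hxp (by rw [hpW x hx, hxp])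
  have kV : ∀ x ∈ V, Q x = 0 → x ≠ 0 → bform hQ x q = 0 →
      (q ∈ perp hQ U ∧ p ∉ perp hQ U) ∨ (q ∈ U ∧ q + x ∈ perp hQ U) := fun x hx hxQ hx0 hxq =>
    hkey q p (Or.inr ⟨hq, hp⟩) (by rw [add_comm, hpq]) hqQ x (Or.inr ⟨hx, hq⟩) hxQ hx0 hxq
      (by rw [hpV x hx, hxq])
  have hqU : q ∈ U ∧ p ∈ U := by
    rcases kW v hv hvQ (hnzero hvv').1 hvc with ⟨hpP, hqP⟩ | ⟨hpU, -⟩
    · refine absurd hpP fun hpP => ?_
      rcases kV t ht htQ (hnzero htt').1 htc with ⟨h, -⟩ | ⟨h, -⟩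
      · exact hqP h
      · exact hp0 (hU p (by simpa [← hpq] using U.sub_mem hu h) hpP)
    · exact ⟨by simpa [← hpq] using U.sub_mem hu hpU, hpU⟩
  have hcases : ∀ {c x : ι → F} {P : Prop}, c ≠ 0 → c ∈ U →
      ((c ∈ perp hQ U ∧ P) ∨ (c ∈ U ∧ c + x ∈ perp hQ U)) → c + x ∈ perp hQ U :=
    fun hc hcU h => h.elim (fun h => absurd (hU _ hcU h.1) hc) And.right
  have a1 := hcases hp0 hqU.2 (kW v hv hvQ (hnzero hvv').1 hvc)
  have a2 := hcases hp0 hqU.2 (kW v' hv' hv'Q (hnzero hvv').2 hv'c)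
  have b1 := hcases hq0 hqU.1 (kV t ht htQ (hnzero htt').1 htc)
  have b2 := hcases hq0 hqU.1 (kV t' ht' ht'Q (hnzero htt').2 ht'c)
  have hpp : bform hQ p p = 0 := by rw [b_self hQ, h2, zero_mul]
  have hqq : bform hQ q q = 0 := by rw [b_self hQ, h2, zero_mul]
  have hs12 : bform hQ (p + v) (p + v') = 1 := by
    simp only [map_add, LinearMap.add_apply, hpp, hvv', b_symm hQ p v', hv'c, hvc]; ring
  have ht12 : bform hQ (q + t) (q + t') = 1 := by
    simp only [map_add, LinearMap.add_apply, hqq, htt', b_symm hQ q t', ht'c, htc]; ring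
  set S := Submodule.span F {p + v} ⊔ Submodule.span F {p + v'} with hS
  set T := Submodule.span F {q + t} ⊔ Submodule.span F {q + t'} with hT
  have hpair : ∀ a b : ι → F, bform hQ a a = 0 → bform hQ a b = 1 → b ≠ 0 →
      finrank F ↥(Submodule.span F {a} ⊔ Submodule.span F {b}) = 2 := by
    intro a b haa hab hb
    refine le_antisymm (finrank_span_pair_le hQ a b) ?_
    have hlt : Submodule.span F {a} < Submodule.span F {a} ⊔ Submodule.span F {b} :=
      lt_of_le_of_ne le_sup_left fun heq => by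
        obtain ⟨r, hr⟩ := Submodule.mem_span_singleton.1
          (heq.ge (Submodule.mem_sup_right (Submodule.mem_span_singleton_self b)))
        rw [← hr, map_smul, haa, smul_zero] at hab
        exact zero_ne_one hab
    have := Submodule.finrank_lt_finrank_of_lt hlt
    rw [finrank_span_singleton (hnzero hab).1] at this
    omega
  have hST : S ⊔ T = perp hQ U := by
    refine Submodule.eq_of_le_of_finrank_le (sup_le (sup_le ((Submodule.span_singleton_le_iff_mem _ _).2 a1)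
      ((Submodule.span_singleton_le_iff_mem _ _).2 a2)) (sup_le ((Submodule.span_singleton_le_iff_mem _ _).2 b1)
      ((Submodule.span_singleton_le_iff_mem _ _).2 b2))) ?_
    have h1 : S ⊓ T = ⊥ := (Submodule.eq_bot_iff _).2 fun x hx => hW x
      (sup_le ((Submodule.span_singleton_le_iff_mem _ _).2 (W.add_mem hp hv))
        ((Submodule.span_singleton_le_iff_mem _ _).2 (W.add_mem hp hv')) hx.1)
      (sup_le ((Submodule.span_singleton_le_iff_mem _ _).2 (V.add_mem hq ht))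
        ((Submodule.span_singleton_le_iff_mem _ _).2 (V.add_mem hq ht')) hx.2)
    have h3 := Submodule.finrank_sup_add_finrank_inf_eq S T
    rw [h1, finrank_bot, hpair _ _ (by rw [b_self hQ, h2, zero_mul]) hs12 (hnzero hs12).2,
      hpair _ _ (by rw [b_self hQ, h2, zero_mul]) ht12 (hnzero ht12).2] at h3
    omega
  -- the plane of `W` orthogonal to `S` is anisotropic
  have haniso : ∀ r ∈ W ⊓ perp hQ S, r ≠ 0 → Q r = 1 := fun r hr hr0 => hone _ fun hrQ => hr0 (hUW r ?_ hr.1 hrQ)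
  · obtain ⟨r₀, hr₀, hr₀0⟩ := Submodule.exists_mem_ne_zero_of_ne_bot (p := W ⊓ perp hQ S) fun h => by
      have h1 := finrank_le_inf_perp hQ W S
      have h3 := finrank_span_pair_le hQ (p + v) (p + v')
      rw [h, finrank_bot] at h1
      rw [← hS] at h3
      omega
    obtain ⟨r₁, hr₁, hr₁N⟩ : ∃ r ∈ W ⊓ perp hQ S, r ∉ Submodule.span F {r₀} := by
      refine SetLike.not_le_iff_exists.1 fun hle => ?_
      have h1 := finrank_le_inf_perp hQ W S
      have h3 := finrank_span_pair_le hQ (p + v) (p + v')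
      have h4 := Submodule.finrank_mono hle
      rw [finrank_span_singleton hr₀0] at h4
      rw [← hS] at h3
      omega
    obtain ⟨hs1r₀, hs2r₀⟩ := (mem_perp_pair hQ).1 hr₀.2
    obtain ⟨hs1r₁, hs2r₁⟩ := (mem_perp_pair hQ).1 hr₁.2
    have e0 := haniso r₀ hr₀ hr₀0
    have e1 := haniso r₁ hr₁ fun h => hr₁N (h ▸ zero_mem _)
    have e01 := haniso (r₀ + r₁) (Submodule.add_mem _ hr₀ hr₁) fun h => hr₁N (by
      rw [eq_neg_of_add_eq_zero_right h]; exact Submodule.neg_mem _ (Submodule.mem_span_singleton_self _))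
    rw [q_add hQ, e0, e1] at e01
    have hr01 : bform hQ r₀ r₁ = 1 := by linear_combination e01 - h2
    have hQs : ∀ x, bform hQ p x = 0 → Q x = 0 → Q (p + x) = 1 := fun x hpx hx => by
      rw [q_add hQ, hpx, hx, hone _ hpQ]; ring
    have hx := hWl (r₀ + (p + v)) (W.add_mem hr₀.1 (W.add_mem hp hv)) (r₁ + (p + v'))
      (W.add_mem hr₁.1 (W.add_mem hp hv'))
      (by rw [q_add hQ, e0, hQs v (by rw [b_symm hQ, hvc]) hvQ, b_symm hQ, hs1r₀]; linear_combination h2)
      (by rw [q_add hQ, e1, hQs v' (by rw [b_symm hQ, hv'c]) hv'Q, b_symm hQ, hs2r₁]; linear_combination h2)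
      (by
        generalize p + v = a, p + v' = b at hs12 hs1r₁ hs2r₀ ⊢
        rw [map_add (bform hQ), LinearMap.add_apply, map_add, map_add, hr01, hs12, hs1r₁, b_symm hQ r₀, hs2r₀]
        linear_combination h2)
      (fun h => by
        generalize p + v' = b at h hs2r₀
        have h' := congrArg (bform hQ r₀) h
        rw [map_add, hr01, b_symm hQ r₀, hs2r₀, map_zero, add_zero] at h'
        exact one_ne_zero h')
    obtain ⟨c, hc⟩ := Submodule.mem_span_singleton.1 hx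
    generalize p + v = a, p + v' = b at hc hs1r₀ hs1r₁ hs2r₀ hs2r₁
    have h' := congrArg (bform hQ r₀) hc
    rw [map_smul, map_add, map_add, hr01, b_symm hQ r₀ b, hs2r₀, b_symm hQ r₀ a, hs1r₀, b_self hQ,
      h2, zero_mul, add_zero, smul_eq_mul, mul_one, add_zero] at h'
    rw [h', zero_smul] at hc
    have h'' := congrArg (bform hQ r₁) hc
    rw [map_zero, map_add, b_symm hQ r₁ r₀, hr01, b_symm hQ r₁ a, hs1r₁, add_zero] at h''
    exact zero_ne_one h''
  · rw [← perp_perp hQ U, ← hST]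
    rw [perp_sup hQ]
    exact ⟨hr.2, fun x hx => (by rw [b_symm hQ]; exact hWV r hr.1 x (sup_le ((Submodule.span_singleton_le_iff_mem _ _).2 (V.add_mem hq ht))
        ((Submodule.span_singleton_le_iff_mem _ _).2 (V.add_mem hq ht')) hx))⟩

/-- The stabiliser in Omega of a four-dimensional non-degenerate subspace without singular lines, whose
four-dimensional perp has one, is maximal. -/
theorem halves_four_isMaximal (hW : ∀ x ∈ W, x ∈ perp hQ W → x = 0) (hWd : finrank F W = 4)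
    (hVd : finrank F (perp hQ W) = 4)
    (hWl : ∀ x ∈ W, ∀ y ∈ W, Q x = 0 → Q y = 0 → bform hQ x y = 0 → y ≠ 0 → x ∈ Submodule.span F {y})
    {L : Submodule F (ι → F)} (hLV : L ≤ perp hQ W) (hL : ∀ x ∈ L, Q x = 0) (hLd : finrank F L = 2) :
    IsMaximalIn (omegaGL Q) (subspaceStabilizer W ⊓ omegaGL Q) := by
  have hn : 5 ≤ Fintype.card ι := by have := finrank_perp_add hQ W; omega
  exact nondeg_lines_isMaximal hQ hW (fun h => by rw [h, finrank_bot] at hWd; omega)
    (hasLines_of_line hQ hLV hL hLd) (by omega) hn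
    (fun M hPM hMΩ g hgM hgP => halves_kill hQ hn hW hWd hVd hWl hLV hL hLd M hPM hMΩ g hgM hgP)
    (fun h => by omega)

end CfsgLib.OrthEight96
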