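import Cfsg.Agent.OrthGeo.NondegSmall

/-! Non-degenerate subspaces in which every singular point lies on a singular line. -/

set_option autoImplicit false
set_option linter.unusedSectionVars false

namespace CfsgLib.OrthEight96

open Cfsg.Geo Module CfsgLib.OrthGeo
open scoped Matrix MatrixGroups

variable {ι : Type} [Fintype ι] [DecidableEq ι] {F : Type*} [Field F] [Finite F]
variable {Q : (ι → F) → F} (hQ : IsNondegenerateQuadraticForm Q)

/-- Every singular point of the subspace lies on a singular line of it. -/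
def HasLines (hQ : IsNondegenerateQuadraticForm Q) (V : Submodule F (ι → F)) : Prop :=
  ∀ s ∈ V, Q s = 0 → s ≠ 0 → ∃ f ∈ V, Q f = 0 ∧ bform hQ s f = 0 ∧ f ∉ Submodule.span F {s}

include hQ

lemma hasLines_of_five_le {V : Submodule F (ι → F)} (h : 5 ≤ finrank F V) : HasLines hQ V := by
  intro s _ _ _
  obtain ⟨f, ⟨hfV, hfP⟩, hfQ, -, hfN⟩ := exists_singular_avoid hQ
    (T := V ⊓ perp hQ (Submodule.span F {s})) (P := Submodule.span F {s}) (by
      have := finrank_le_inf_perp hQ V (Submodule.span F {s})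
      have h4 : finrank F (Submodule.span F ({s} : Set (ι → F))) ≤ 1 := (finrank_span_le_card _).trans (by simp)
      omega)
  exact ⟨f, hfV, hfQ, (mem_perp_span_singleton hQ).1 hfP, hfN⟩

omit [Finite F] in
lemma b_eq_zero_of_singular {L : Submodule F (ι → F)} (hL : ∀ x ∈ L, Q x = 0) {x y : ι → F} (hx : x ∈ L)
    (hy : y ∈ L) : bform hQ x y = 0 := by
  have h := q_add hQ x y
  rw [hL _ (L.add_mem hx hy), hL x hx, hL y hy] at h
  linear_combination -h

lemma hasLines_of_line {V L : Submodule F (ι → F)} (hLV : L ≤ V) (hL : ∀ x ∈ L, Q x = 0) (hLd : finrank F L = 2) :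
    HasLines hQ V := by
  intro s hsV hsQ hs0
  by_cases hsL : s ∈ L
  · obtain ⟨f, hf, hfN⟩ : ∃ f ∈ L, f ∉ Submodule.span F {s} := by
      refine SetLike.not_le_iff_exists.1 fun hle => ?_
      have := Submodule.finrank_mono hle
      rw [finrank_span_singleton hs0] at this
      omega
    exact ⟨f, hLV hf, hL f hf, b_eq_zero_of_singular hQ hL hsL hf, hfN⟩
  obtain ⟨f, ⟨hf, hfP⟩, hf0⟩ : ∃ f ∈ L ⊓ perp hQ (Submodule.span F {s}), f ≠ 0 := by
    refine Submodule.exists_mem_ne_zero_of_ne_bot fun h => ?_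
    have h1 := finrank_le_inf_perp hQ L (Submodule.span F {s})
    rw [h, finrank_bot, finrank_span_singleton hs0] at h1
    omega
  refine ⟨f, hLV hf, hL f hf, (mem_perp_span_singleton hQ).1 hfP, fun hm => hsL ?_⟩
  obtain ⟨t, ht⟩ := Submodule.mem_span_singleton.1 hm
  have ht0 : t ≠ 0 := fun h => hf0 (by rw [← ht, h, zero_smul])
  exact (Submodule.smul_mem_iff _ ht0).1 (ht ▸ hf)

/-- A singular vector orthogonal to two given singular vectors and outside their lines. -/
lemma exists_common {V : Submodule F (ι → F)} (hlines : HasLines hQ V) {s v : ι → F} (hs : s ∈ V)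
    (hsQ : Q s = 0) (hs0 : s ≠ 0) (hsv : bform hQ s v ≠ 0) :
    ∃ f ∈ V, Q f = 0 ∧ bform hQ s f = 0 ∧ bform hQ v f = 0 ∧
      f ∉ Submodule.span F {s} ∧ f ∉ Submodule.span F {v} := by
  obtain ⟨f, hf, hfQ, hsf, hfN⟩ := hlines s hs hsQ hs0
  set c := bform hQ v f / bform hQ v s with hc
  have hvs : bform hQ v s ≠ 0 := by rwa [b_symm hQ]
  refine ⟨f - c • s, V.sub_mem hf (V.smul_mem _ hs), ?_, ?_, ?_, ?_, ?_⟩
  · rw [q_sub hQ, q_smul hQ, hfQ, hsQ, map_smul, b_symm hQ f s, hsf]; simp
  · rw [map_sub, map_smul, hsf, b_self_eq_zero hQ hsQ, smul_zero, sub_zero]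
  · rw [map_sub, map_smul, smul_eq_mul, hc, div_mul_cancel₀ _ hvs, sub_self]
  · exact fun h => hfN (by simpa using Submodule.add_mem _ h (Submodule.smul_mem _ c (Submodule.mem_span_singleton_self s)))
  · intro h
    obtain ⟨t, ht⟩ := Submodule.mem_span_singleton.1 h
    have h1 : bform hQ s (t • v) = 0 := by
      rw [ht, map_sub, map_smul, hsf, b_self_eq_zero hQ hsQ, smul_zero, sub_zero]
    rw [map_smul, smul_eq_mul, mul_eq_zero] at h1
    have : t = 0 := h1.resolve_right hsv
    rw [this, zero_smul] at ht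
    exact hfN (Submodule.mem_span_singleton.2 ⟨c, (sub_eq_zero.1 ht.symm).symm⟩)

end CfsgLib.OrthEight96
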