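import Cfsg.Agent.OrthGeo.RootLines

/-! The stabiliser in Omega of a non-singular line is maximal in dimension at least eight in characteristic
two: an overgroup contains the root groups of two different lines. -/

set_option autoImplicit false
set_option linter.unusedSectionVars false

namespace CfsgLib.OrthEight96

open Cfsg.Geo Module CfsgLib.OrthGeo
open scoped Matrix MatrixGroups

variable {ι : Type} [Fintype ι] [DecidableEq ι] {F : Type*} [Field F] [Finite F]
variable {Q : (ι → F) → F} (hQ : IsNondegenerateQuadraticForm Q)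
include hQ

omit [DecidableEq ι] in
/-- A singular vector perpendicular to a small subspace, outside it, not perpendicular to a given vector
outside it. -/
lemma exists_pick_eight (h2 : (2 : F) = 0) {L : Submodule F (ι → F)} (hL : finrank F L ≤ 2)
    (hn : 8 ≤ Fintype.card ι) {v₀ : ι → F} (hv₀ : v₀ ∈ L) (hv₀Q : Q v₀ ≠ 0) {a : ι → F}
    (ha : a ∉ L) : ∃ z ∈ perp hQ L, Q z = 0 ∧ z ∉ L ∧ bform hQ z a ≠ 0 := by
  classical
  obtain ⟨y, hy, hya⟩ : ∃ y ∈ perp hQ L, bform hQ y a ≠ 0 :=
    exists_mem_b_ne_zero hQ (by rwa [perp_perp hQ])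
  obtain ⟨c, ⟨hcL, hcP⟩, hcQ, hcN⟩ : ∃ c ∈ perp hQ L ⊓ perp hQ (Submodule.span F {a} ⊔ Submodule.span F {y}),
      Q c = 0 ∧ c ∉ L := by
    set T := perp hQ L ⊓ perp hQ (Submodule.span F {a} ⊔ Submodule.span F {y}) with hT
    have hTd : 4 ≤ finrank F T := by
      have := finrank_le_inf_perp hQ (perp hQ L) (Submodule.span F {a} ⊔ Submodule.span F {y})
      have := finrank_span_pair_le hQ a y
      have := finrank_perp_add hQ L
      rw [hT]
      omega
    by_cases hLT : L ≤ T
    · obtain ⟨t, ht, htL⟩ : ∃ t ∈ T, t ∉ L := SetLike.not_le_iff_exists.1 fun h => by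
        have := Submodule.finrank_mono h
        omega
      have := Fintype.ofFinite F
      obtain ⟨α, hα⟩ := FiniteField.isSquare_of_char_two (show ringChar F = 2 from CharP.ringChar_of_prime_eq_zero Nat.prime_two (by exact_mod_cast h2)) (Q t / Q v₀)
      refine ⟨t + α • v₀, T.add_mem ht (T.smul_mem α (hLT hv₀)), ?_,
        fun h => htL (by simpa using L.sub_mem h (L.smul_mem α hv₀))⟩
      rw [q_add hQ, q_smul hQ, map_smul, b_symm hQ t v₀, ht.1 v₀ hv₀, smul_zero, add_zero, sq, ← hα,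
        div_mul_cancel₀ _ hv₀Q]
      linear_combination Q t * h2
    · obtain ⟨c, hc, hcQ, -, hcN⟩ := exists_singular_avoid hQ (T := T) (P := L ⊓ T) (by
        have := Submodule.finrank_lt_finrank_of_lt (lt_of_le_of_ne inf_le_left fun h =>
          hLT (inf_eq_left.1 h) : L ⊓ T < L)
        omega)
      exact ⟨c, hc, hcQ, fun h => hcN ⟨h, hc⟩⟩
  obtain ⟨hac, hyc⟩ := (mem_perp_pair hQ).1 hcP
  obtain ⟨d, hd, hdc⟩ : ∃ d ∈ perp hQ L, bform hQ d c = 1 := by
    obtain ⟨d, hd, hdc⟩ : ∃ d ∈ perp hQ L, bform hQ d c ≠ 0 :=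
      exists_mem_b_ne_zero hQ (by rwa [perp_perp hQ])
    exact ⟨_, Submodule.smul_mem _ _ hd, by
      rw [map_smul, LinearMap.smul_apply, smul_eq_mul]; exact inv_mul_cancel₀ hdc⟩
  obtain ⟨e, he, hec, hea⟩ : ∃ e ∈ perp hQ L, bform hQ e c = 1 ∧ bform hQ e a ≠ 0 := by
    by_cases hda : bform hQ d a = 0
    · exact ⟨y + d, Submodule.add_mem _ hy hd,
        by rw [map_add, LinearMap.add_apply, hdc, hyc, zero_add],
        by rw [map_add, LinearMap.add_apply, hda, add_zero]; exact hya⟩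
    · exact ⟨d, hd, hdc, hda⟩
  refine ⟨e - Q e • c, Submodule.sub_mem _ he (Submodule.smul_mem _ _ hcL), ?_, fun hmem => ?_, ?_⟩
  · rw [q_sub hQ, q_smul hQ, hcQ, map_smul, smul_eq_mul, hec]; ring
  · have h := hcL _ hmem
    rw [map_sub, LinearMap.sub_apply, map_smul, LinearMap.smul_apply, b_self_eq_zero hQ hcQ, hec, smul_zero,
      sub_zero] at h
    exact one_ne_zero h
  · rw [map_sub, map_smul, LinearMap.sub_apply, LinearMap.smul_apply, b_symm hQ c a, hac, smul_zero, sub_zero]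
    exact hea

/-- The stabiliser in Omega of a non-singular line is maximal. -/
theorem nonsingular_line_eight_isMaximal (h2 : (2 : F) = 0) (hn : 8 ≤ Fintype.card ι) {v : ι → F} (hv : Q v ≠ 0) :
    IsMaximalIn (omegaGL Q) (subspaceStabilizer (Submodule.span F {v}) ⊓ omegaGL Q) := by
  have hn5 : 5 ≤ Fintype.card ι := by omega
  have hv0 : v ≠ 0 := fun h => hv (by rw [h, q_zero hQ])
  set P := subspaceStabilizer (Submodule.span F {v}) ⊓ omegaGL Q with hPdef
  have hPin : ∀ u w : ι → F, Q u = 0 → bform hQ u w = 0 → bform hQ u v = 0 → bform hQ w v = 0 → EIn Q P u w :=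
    fun u w hu huw huv hwv => eIn_of_mem hQ hu huw ⟨mem_subspaceStabilizer_of_le fun x hx => by
      obtain ⟨c, rfl⟩ := Submodule.mem_span_singleton.1 hx
      rw [eichler_fix hQ hu huw (by rw [map_smul, huv, smul_zero]) (by rw [map_smul, hwv, smul_zero])]
      exact hx, eichler_mem_omega hQ hn5 hu huw⟩
  refine ⟨lt_of_le_not_ge inf_le_right fun hle => ?_, fun M hPM hMΩ => ?_⟩
  · obtain ⟨u, hu, hu0, huQ⟩ := exists_singular hQ (S := perp hQ (Submodule.span F {v})) (by
      have := finrank_perp_add hQ (Submodule.span F {v})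
      rw [finrank_span_singleton hv0] at this
      omega)
    have huv : bform hQ v u = 0 := (mem_perp_span_singleton hQ).1 hu
    obtain ⟨w, hw, -, hwv⟩ := exists_b_one_mem hQ (S := perp hQ (Submodule.span F {u}))
      (T := (⊥ : Submodule F (ι → F))) (v := v) (by
        rw [bot_sup_eq, perp_perp hQ]
        intro hmem
        obtain ⟨c, hc⟩ := Submodule.mem_span_singleton.1 hmem
        exact hv (by rw [← hc, q_smul hQ, huQ, mul_zero]))
    have huw : bform hQ u w = 0 := (mem_perp_span_singleton hQ).1 hw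
    have h1 := (mem_subspaceStabilizer.1 (hle (eichler_mem_omega hQ hn5 huQ huw)).1 v).1
      (Submodule.mem_span_singleton_self v)
    rw [eichler_mulVec hQ, b_symm hQ u v, huv, b_symm hQ w v, hwv] at h1
    simp only [zero_smul, one_smul, mul_zero, sub_zero] at h1
    have h2 : u ∈ Submodule.span F {v} := by
      simpa using Submodule.sub_mem _ h1 (Submodule.mem_span_singleton_self v)
    obtain ⟨c, hc⟩ := Submodule.mem_span_singleton.1 h2
    have hc0 : c ≠ 0 := by rintro rfl; exact hu0 (by rw [← hc, zero_smul])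
    rw [← hc, q_smul hQ] at huQ
    exact hv ((mul_eq_zero.1 huQ).resolve_left (pow_ne_zero 2 hc0))
  by_cases hMP : M ≤ P
  · exact Or.inl (le_antisymm hMP hPM)
  refine Or.inr (le_antisymm hMΩ ?_)
  have hMI : M ≤ Cfsg.isometryGroup F Q := hMΩ.trans omegaGL_le
  obtain ⟨g, hgM, hgP⟩ := SetLike.not_le_iff_exists.1 hMP
  have hgI := hMI hgM
  set v' : ι → F := (g : Matrix ι ι F) *ᵥ v with hv'
  have hv'n : v' ∉ Submodule.span F {v} := fun h => hgP ⟨mem_subspaceStabilizer_of_le fun x hx => by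
    obtain ⟨c, rfl⟩ := Submodule.mem_span_singleton.1 hx
    rw [Matrix.mulVec_smul]
    exact Submodule.smul_mem _ _ h, hMΩ hgM⟩
  set L := Submodule.span F {v} ⊔ Submodule.span F {v'} with hLdef
  have hL : finrank F L ≤ 2 := finrank_span_pair_le hQ v v'
  have hvL : v ∈ L := Submodule.mem_sup_left (Submodule.mem_span_singleton_self v)
  -- singular vectors perpendicular to the two lines
  have hR0 : ∀ u ∈ perp hQ L, Q u = 0 → u ∉ L → ∀ w, bform hQ u w = 0 → EIn Q M u w := by
    intro u hu huQ huL w huw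
    obtain ⟨hvu, hv'u⟩ := (mem_perp_pair hQ).1 hu
    obtain ⟨y, hy, -, hv'y⟩ := exists_b_one_mem hQ (S := perp hQ (Submodule.span F {u} ⊔ Submodule.span F {v}))
      (T := (⊥ : Submodule F (ι → F))) (v := v') (by
        rw [bot_sup_eq, perp_perp hQ]
        intro hmem
        obtain ⟨_, hp, _, hq, e⟩ := Submodule.mem_sup.1 hmem
        obtain ⟨a, rfl⟩ := Submodule.mem_span_singleton.1 hp
        obtain ⟨c, rfl⟩ := Submodule.mem_span_singleton.1 hq
        have ha : a ≠ 0 := by
          rintro rfl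
          exact hv'n (Submodule.mem_span_singleton.2 ⟨c, by rw [← e, zero_smul, zero_add]⟩)
        refine huL ((Submodule.smul_mem_iff _ ha).1 ?_)
        rw [eq_sub_of_add_eq e]
        exact Submodule.sub_mem _ (Submodule.mem_sup_right (Submodule.mem_span_singleton_self _))
          (Submodule.mem_sup_left (Submodule.smul_mem _ c (Submodule.mem_span_singleton_self _))))
    obtain ⟨huy, hvy⟩ := (mem_perp_pair hQ).1 hy
    set c := bform hQ v' w with hc
    have h1 : EIn Q M u (c • y) := (hPin u (c • y) huQ (by rw [map_smul, huy, smul_zero])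
      (by rw [b_symm hQ]; exact hvu)
      (by rw [map_smul, LinearMap.smul_apply, b_symm hQ y v, hvy, smul_zero])).mono hPM
    have huw2 : bform hQ u (w - c • y) = 0 := by rw [map_sub, map_smul, huw, huy, smul_zero, sub_zero]
    have h2 : EIn Q M u (w - c • y) := by
      have hb : ∀ x : ι → F, bform hQ (((g⁻¹ : GL ι F) : Matrix ι ι F) *ᵥ x) v = bform hQ x v' := fun x => by
        rw [← isometry_b hQ hgI (((g⁻¹ : GL ι F) : Matrix ι ι F) *ᵥ x) v, mulVec_inv_cancel, hv']
      have hu' : Q (((g⁻¹ : GL ι F) : Matrix ι ι F) *ᵥ u) = 0 := by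
        rw [mem_isometryGroup.1 (inv_mem hgI), huQ]
      have huw' : bform hQ (((g⁻¹ : GL ι F) : Matrix ι ι F) *ᵥ u)
          (((g⁻¹ : GL ι F) : Matrix ι ι F) *ᵥ (w - c • y)) = 0 := by
        rw [isometry_b hQ (inv_mem hgI), huw2]
      have := ((hPin _ _ hu' huw' (by rw [hb, b_symm hQ, hv'u])
        (by rw [hb, b_symm hQ, map_sub, map_smul, hv'y, ← hc, smul_eq_mul, mul_one, sub_self])).mono hPM).conj
          hQ hu' huw' hgM hgI
      rwa [mulVec_inv_cancel, mulVec_inv_cancel] at this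
    have := h1.add hQ h2 huQ (by rw [map_smul, huy, smul_zero]) huw2
    rwa [add_sub_cancel] at this
  -- moving with such a root group reaches every singular vector outside the two lines
  have hR1 : ∀ u, Q u = 0 → u ∉ L → ∀ w, bform hQ u w = 0 → EIn Q M u w := by
    intro u huQ huL w huw
    obtain ⟨z, hzP, hzQ, hzL, hzu⟩ := exists_pick_eight hQ h2 hL hn hvL hv huL
    obtain ⟨x, hxP, hxQ, hxL, hxz⟩ := exists_pick_eight hQ h2 hL hn hvL hv hzL
    have hzx : bform hQ z x ≠ 0 := by rw [b_symm hQ]; exact hxz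
    set d := bform hQ z u / bform hQ z x with hd
    obtain ⟨h, he⟩ := exists_eichler_map hQ hzQ (v := (bform hQ z x)⁻¹ • x) (v' := (bform hQ z u)⁻¹ • u)
      (by rw [q_smul hQ, hxQ, mul_zero]) (by rw [q_smul hQ, huQ, mul_zero])
      (by rw [map_smul, smul_eq_mul, inv_mul_cancel₀ hzx]) (by rw [map_smul, smul_eq_mul, inv_mul_cancel₀ hzu])
    have hk := (hR0 z hzP hzQ hzL _ h).mem hQ hzQ h
    set k := eichler hQ hzQ h with hkdef
    have hku : (k : Matrix ι ι F) *ᵥ (d • x) = u := by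
      rw [hd, div_eq_mul_inv, ← smul_smul, Matrix.mulVec_smul, he, smul_inv_smul₀ hzu]
    have hd0 : d ≠ 0 := div_ne_zero hzu hzx
    obtain ⟨y, rfl⟩ : ∃ y, w = (k : Matrix ι ι F) *ᵥ y := ⟨_, (mulVec_inv_cancel k w).symm⟩
    rw [← hku, isometry_b hQ (hMI hk)] at huw
    rw [← hku]
    refine (hR0 (d • x) (Submodule.smul_mem _ _ hxP) (by rw [q_smul hQ, hxQ, mul_zero])
      (fun hm => hxL ((Submodule.smul_mem_iff _ hd0).1 hm)) y huw).conj hQ (by rw [q_smul hQ, hxQ, mul_zero])
        huw hk (hMI hk)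
  refine omega_le_of_root_vectors hQ hn5 hMI {z | Q z = 0 ∧ z ∉ L} (fun z hz => ⟨hz.1, hR1 z hz.1 hz.2⟩) ?_
  intro u huQ hu0
  obtain ⟨z, hzQ, hzL, hzu⟩ : ∃ z, Q z = 0 ∧ z ∉ L ∧ bform hQ z u ≠ 0 := by
    by_cases huL : u ∈ L
    swap
    · obtain ⟨z, -, hzQ, hzL, hzu⟩ := exists_pick_eight hQ h2 hL hn hvL hv huL
      exact ⟨z, hzQ, hzL, hzu⟩
    obtain ⟨p, hpQ, hup⟩ := exists_partner hQ huQ hu0
    have hpu : bform hQ p u ≠ 0 := by rw [b_symm hQ, hup]; exact one_ne_zero
    by_cases hpL : p ∈ L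
    swap
    · exact ⟨p, hpQ, hpL, hpu⟩
    obtain ⟨c, hcP, hcQ, -, hcL⟩ := exists_singular_avoid hQ (T := perp hQ L) (P := L) (by
      have := finrank_perp_add hQ L
      omega)
    refine ⟨p + c, ?_, fun h => hcL (by simpa using Submodule.sub_mem _ h hpL), ?_⟩
    · rw [q_add hQ, hpQ, hcQ, hcP p hpL, add_zero, add_zero]
    · rw [map_add, LinearMap.add_apply, b_symm hQ c u, hcP u huL, add_zero]
      exact hpu
  obtain ⟨x, -, hxQ, hxL, hxz⟩ := exists_pick_eight hQ h2 hL hn hvL hv hzL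
  exact ⟨z, ⟨hzQ, hzL⟩, x, ⟨hxQ, hxL⟩, by rw [b_symm hQ]; exact hxz, hzu⟩

end CfsgLib.OrthEight96
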