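import Cfsg.Agent.Subfield54.SL2
import Cfsg.Agent.OrthEight96.RatRoot

/-! Without irrational root elements at rational points, an overgroup of an orthogonal subfield group is the
subfield group. -/

set_option autoImplicit false
set_option linter.unusedSectionVars false

namespace CfsgLib.OrthEight96

open Cfsg.Geo Module CfsgLib.OrthGeo CfsgLib.Subfield54 CfsgLib.Dickson
open scoped Matrix MatrixGroups

variable {ι : Type} [Fintype ι] [DecidableEq ι] {F : Type*} [Field F] [Fintype F]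
variable {F₀ : Subfield F} {Q : (ι → F) → F} {P : GL ι F}
variable (hR : QRat Q F₀ P) (hn : 8 ≤ Fintype.card ι)
variable {M : Subgroup (GL ι F)} (hH : SubO Q F₀ P ≤ M) (hM : M ≤ omegaGL Q) (hno : NoIrr hR M)
variable {r : ℕ} (hr : r.Prime) (hcard : Fintype.card F = Nat.card F₀ ^ r)

omit [Fintype F] in
lemma exists_not_three (hfin : Finite F) (hr4 : 3 < r) (hcard : Nat.card F = Nat.card F₀ ^ r) (p ρ k : F) :
    ∃ x : F, ∀ c₀ ∈ F₀, ∀ c₁ ∈ F₀, ∀ c₂ ∈ F₀, x ≠ p * (c₀ + c₁ * ρ + c₂ * k) := by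
  by_contra hno
  push Not at hno
  have hsurj : Function.Surjective fun c : F₀ × F₀ × F₀ => p * ((c.1 : F) + (c.2.1 : F) * ρ + (c.2.2 : F) * k) :=
    fun x => by
      obtain ⟨c₀, h₀, c₁, h₁, c₂, h₂, e⟩ := hno x
      exact ⟨(⟨c₀, h₀⟩, ⟨c₁, h₁⟩, ⟨c₂, h₂⟩), e.symm⟩
  have := Nat.card_le_card_of_surjective _ hsurj
  rw [Nat.card_prod, Nat.card_prod, hcard] at this
  have h2 : 1 < Nat.card F₀ := Finite.one_lt_card
  have h3 : Nat.card F₀ ^ 3 < Nat.card F₀ ^ r := Nat.pow_lt_pow_right h2 hr4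
  rw [pow_succ, pow_two, mul_assoc] at h3
  omega

include hR hn hr hcard

omit hn in
lemma finrank_eq_prime : finrank F₀ F = r := by
  have h := Module.natCard_eq_pow_finrank (K := F₀) (V := F)
  rw [Nat.card_eq_fintype_card, hcard] at h
  exact (Nat.pow_right_injective Finite.one_lt_card h).symm

include hH hM hno

omit hr hcard in
/-- A root element whose second vector is irrational in the span of three rational vectors fixes some rational
singular vector. -/
lemma fix_of_small {x : GL ι F} (hx : x ∈ M) {u v : ι → F} (ex : (x : Matrix ι ι F) = eichlerMat Q u v)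
    (huQ : Q u = 0) (hvQ : Q v = 0) (huv : bform hR.nondeg u v = 0)
    (hvl : ∀ (s : F) (w : ι → F), QW F₀ P w → v ≠ s • w) {a₁ a₂ a₃ : ι → F} (h₁ : QW F₀ P a₁) (h₂ : QW F₀ P a₂)
    (h₃ : QW F₀ P a₃) (hv : v ∈ Submodule.span F (Set.range ![a₁, a₂, a₃])) :
    ∃ c, QW F₀ P c ∧ Q c = 0 ∧ c ≠ 0 ∧ bform hR.nondeg u c = 0 ∧ bform hR.nondeg v c = 0 := by
  have hQ := hR.nondeg
  obtain ⟨t₁, rfl⟩ := exists_qemb h₁
  obtain ⟨t₂, rfl⟩ := exists_qemb h₂
  obtain ⟨t₃, rfl⟩ := exists_qemb h₃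
  have hcols : (fun j => qemb P (![t₁, t₂, t₃] j)) = ![qemb P t₁, qemb P t₂, qemb P t₃] := by
    funext j; fin_cases j <;> rfl
  set hQ₀ := qQ_nondeg hR with hQ₀def
  set A := Submodule.span F₀ (Set.range ![t₁, t₂, t₃]) with hA
  have hAd : finrank F₀ A ≤ 3 := (finrank_range_le_card _).trans (Fintype.card_fin 3).le
  have hsum := finrank_perp_add hQ₀ A
  obtain ⟨c, hcA, hc0, hcQ, hne⟩ : ∃ c ∈ perp hQ₀ A, c ≠ 0 ∧ qQ hR c = 0 ∧
      ∃ e ∈ perp hQ₀ (A ⊔ Submodule.span F₀ {c}), e ∉ A ⊔ Submodule.span F₀ {c} := by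
    have hbig : ∀ c : ι → F₀, finrank F₀ ↥(A ⊔ Submodule.span F₀ {c}) <
        finrank F₀ ↥(perp hQ₀ (A ⊔ Submodule.span F₀ {c})) →
        ∃ e ∈ perp hQ₀ (A ⊔ Submodule.span F₀ {c}), e ∉ A ⊔ Submodule.span F₀ {c} := fun c h =>
      SetLike.not_le_iff_exists.1 fun hle => absurd (Submodule.finrank_mono hle) (by omega)
    by_cases hAA : A ≤ perp hQ₀ A ∧ finrank F₀ A = 3
    · obtain ⟨c, hc, hc0, hcQ⟩ := exists_singular hQ₀ (S := A) (by omega)
      refine ⟨c, hAA.1 hc, hc0, hcQ, hbig c ?_⟩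
      rw [sup_eq_left.2 ((Submodule.span_singleton_le_iff_mem _ _).2 hc)]
      omega
    · obtain ⟨c, hc, hc0, hcQ⟩ := exists_singular hQ₀ (S := perp hQ₀ A) (by omega)
      refine ⟨c, hc, hc0, hcQ, SetLike.not_le_iff_exists.1 fun hle => hAA ?_⟩
      have h1 := Submodule.finrank_add_le_finrank_add_finrank A (Submodule.span F₀ {c})
      rw [finrank_span_singleton hc0] at h1
      have h2 := Submodule.finrank_mono hle
      have h3 := finrank_perp_add hQ₀ (A ⊔ Submodule.span F₀ {c})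
      have heq := Submodule.eq_of_le_of_finrank_le hle (by omega)
      exact ⟨fun y hy z hz => (heq.symm ▸ Submodule.mem_sup_left hy : y ∈ perp hQ₀ (A ⊔ Submodule.span F₀ {c}))
        z (Submodule.mem_sup_left hz), by omega⟩
  obtain ⟨e, he, heN⟩ := hne
  have hcp : ∀ j, bform hQ (qemb P (![t₁, t₂, t₃] j)) (qemb P c) = 0 := (mem_qperp_range hR).1 hcA
  have hep : ∀ j, bform hQ (qemb P (![t₁, t₂, t₃] j)) (qemb P e) = 0 :=
    (mem_qperp_range hR).1 fun z hz => he z (Submodule.mem_sup_left hz)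
  have hce : bform hQ (qemb P c) (qemb P e) = 0 := by
    rw [← bform_qQ hR, he c (Submodule.mem_sup_right (Submodule.mem_span_singleton_self c))]; rfl
  rw [← hcols] at hv
  have hvc : bform hQ v (qemb P c) = 0 := b_span_zero hQ hv hcp
  have hve : bform hQ v (qemb P e) = 0 := b_span_zero hQ hv hep
  obtain ⟨C, hC⟩ : ∃ C, C = qemb P c := ⟨_, rfl⟩
  obtain ⟨E, hE⟩ : ∃ E, E = qemb P e := ⟨_, rfl⟩
  rw [← hC] at hcp hvc hce
  rw [← hE] at hep hve hce
  have hCW : QW F₀ P C := hC ▸ qw_qemb c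
  have hEW : QW F₀ P E := hE ▸ qw_qemb e
  have hCQ : Q C = 0 := hC ▸ congrArg Subtype.val hcQ
  have hC0 : C ≠ 0 := hC ▸ qemb_ne_zero hc0
  refine ⟨C, hCW, hCQ, hC0, ?_, hvc⟩
  by_contra huc
  obtain ⟨y, hy, ey⟩ := eIn_rational hR hn hH hM hCW hEW hCQ hce
  have hyI := isometry_of_mem hR hM hy
  have hyy : ∀ z, (y : Matrix ι ι F) *ᵥ z = z + bform hQ E z • C - bform hQ C z • E -
      (Q E * bform hQ C z) • C := fun z => by rw [ey, eichlerMat_mulVec hQ]
  have hyv : (y : Matrix ι ι F) *ᵥ v = v := by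
    rw [hyy, b_symm hQ E v, hve, b_symm hQ C v, hvc]; simp
  have hvu : bform hQ v u = 0 := by rw [b_symm hQ, huv]
  have h1 : EIn Q M u v := ⟨x, hx, ex⟩
  have h3 : EIn Q M v u := h1.swap hQ huQ hvQ huv
  have h2 : EIn Q M v (-u) := h3.neg hQ hvQ hvu
  have h4 : EIn Q M ((y : Matrix ι ι F) *ᵥ v) ((y : Matrix ι ι F) *ᵥ (-u)) :=
    h2.conj hQ hvQ (by rw [map_neg, hvu, neg_zero]) hy hyI
  rw [hyv] at h4
  have hvyu : bform hQ v ((y : Matrix ι ι F) *ᵥ (-u)) = 0 := by
    conv_lhs => rw [← hyv]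
    rw [isometry_b hQ hyI, map_neg, hvu, neg_zero]
  obtain ⟨z, hzM, ez⟩ := h3.add hQ h4 hvQ hvu hvyu
  set κ := -bform hQ E u + Q E * bform hQ C u with hκ
  have hZ : u + (y : Matrix ι ι F) *ᵥ (-u) = κ • C + bform hQ C u • E := by
    rw [Matrix.mulVec_neg, hyy, hκ]
    module
  rw [hZ] at ez
  have hzy : ∀ q, (z : Matrix ι ι F) *ᵥ q = q + (κ * bform hQ C q + bform hQ C u * bform hQ E q) • v -
      bform hQ v q • (κ • C + bform hQ C u • E) - (Q (κ • C + bform hQ C u • E) * bform hQ v q) • v := fun q => by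
    rw [ez, eichlerMat_mulVec hQ]
    simp only [map_add, map_smul, LinearMap.add_apply, LinearMap.smul_apply, smul_eq_mul]
  have hzC : (z : Matrix ι ι F) *ᵥ C = C := by
    rw [hzy, hvc, b_self_eq_zero hQ hCQ, b_symm hQ E C, hce]; simp
  have hpW := preserves_of_fix_point hR hn hH hM hno hzM hCW hC0 hCQ hzC
  -- a rational vector perpendicular to all but `E`
  obtain ⟨q, hq, hqp, hEq⟩ := exists_qw_pair_one hR (fun j => qemb P (![t₁, t₂, t₃, c] j)) (c := E)
    (fun j => qw_qemb _) hEW (fun hm => heN (by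
      have h5 := qw_descent (hE ▸ hm : qemb P e ∈ _)
      refine Submodule.span_le.2 ?_ h5
      rintro _ ⟨j, rfl⟩
      fin_cases j
      · exact Submodule.mem_sup_left (Submodule.subset_span ⟨0, rfl⟩)
      · exact Submodule.mem_sup_left (Submodule.subset_span ⟨1, rfl⟩)
      · exact Submodule.mem_sup_left (Submodule.subset_span ⟨2, rfl⟩)
      · exact Submodule.mem_sup_right (Submodule.mem_span_singleton_self c)))
  have hCq : bform hQ C q = 0 := hC ▸ hqp 3
  have hvq : bform hQ v q = 0 := b_span_zero hQ hv (by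
    simp only [Fin.forall_fin_succ, Fin.forall_fin_zero, and_true]
    exact ⟨hqp 0, hqp 1, hqp 2⟩)
  have h5 := (hpW q hq).sub hq
  rw [hzy, hvq, hCq, hEq] at h5
  simp only [mul_zero, zero_add, mul_one, zero_smul, sub_zero, add_sub_cancel_left] at h5
  refine hvl (bform hQ C u)⁻¹ _ h5 ?_
  rw [smul_smul, inv_mul_cancel₀ (fun h0 => huc (by rw [b_symm hQ]; exact h0)), one_smul]

/-- A root element of `M` fixes some rational singular vector. -/
lemma rational_pair {x : GL ι F} (hx : x ∈ M) {u₀ v₀ : ι → F} (ex : (x : Matrix ι ι F) = eichlerMat Q u₀ v₀)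
    (hu₀ : Q u₀ = 0) (hv₀ : Q v₀ = 0) (huv₀ : bform hR.nondeg u₀ v₀ = 0)
    (hind₀ : ∀ t : F, v₀ ≠ t • u₀) (hu₀0 : u₀ ≠ 0) :
    ∃ c, QW F₀ P c ∧ Q c = 0 ∧ c ≠ 0 ∧ bform hR.nondeg u₀ c = 0 ∧ bform hR.nondeg v₀ c = 0 := by
  by_contra hc
  push Not at hc
  have hQ := hR.nondeg
  obtain ⟨a, ha, haQ, ha0, -, -⟩ := exists_qw_singular hR (![] : Fin 0 → ι → F) (![] : Fin 0 → ι → F)
    (by simp) (by simp) (by omega)
  obtain ⟨u, v, exuv, huQ, hvQ, huv, hau, hav, hind, hnone⟩ : ∃ u v : ι → F,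
      (x : Matrix ι ι F) = eichlerMat Q u v ∧ Q u = 0 ∧ Q v = 0 ∧ bform hR.nondeg u v = 0 ∧
      bform hR.nondeg a u = 1 ∧ bform hR.nondeg a v = 0 ∧ (v ≠ 0) ∧
      (∀ c, QW F₀ P c → Q c = 0 → c ≠ 0 → bform hR.nondeg u c = 0 → bform hR.nondeg v c ≠ 0) := by
    have hv₀u : bform hR.nondeg v₀ u₀ = 0 := by rw [b_symm hR.nondeg, huv₀]
    have huu : bform hR.nondeg u₀ u₀ = 0 := by rw [b_self hR.nondeg, hu₀, mul_zero]
    by_cases hp : bform hR.nondeg a u₀ = 0
    · have hq : bform hR.nondeg a v₀ ≠ 0 := fun h =>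
        hc a ha haQ ha0 (by rw [b_symm hR.nondeg]; exact hp) (by rw [b_symm hR.nondeg]; exact h)
      set p := bform hR.nondeg a v₀ with hpdef
      refine ⟨p⁻¹ • v₀, -(p • u₀), ?_, by rw [q_smul hQ, hv₀, mul_zero], by rw [q_neg hQ, q_smul hQ, hu₀, mul_zero],
        by rw [map_smul, LinearMap.smul_apply, map_neg, map_smul, hv₀u]; simp,
        by rw [map_smul, ← hpdef, smul_eq_mul, inv_mul_cancel₀ hq],
        by rw [map_neg, map_smul, hp, smul_zero, neg_zero], neg_ne_zero.2 (smul_ne_zero hq hu₀0), ?_⟩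
      · rw [ex, eichlerMat_swap hQ hu₀ hv₀, eichlerMat_smul_left hQ, smul_neg, smul_smul, inv_mul_cancel₀ hq,
          one_smul]
      · intro c hcW hcQ hc0 h1 h2
        rw [map_smul, LinearMap.smul_apply, smul_eq_mul, mul_eq_zero] at h1
        rw [map_neg, LinearMap.neg_apply, map_smul, LinearMap.smul_apply, smul_eq_mul, neg_eq_zero, mul_eq_zero] at h2
        exact hc c hcW hcQ hc0 (h2.resolve_left hq) (h1.resolve_left (inv_ne_zero hq))
    · set p := bform hR.nondeg a u₀ with hpdef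
      set q := bform hR.nondeg a v₀ with hqdef
      refine ⟨p⁻¹ • u₀, p • v₀ - q • u₀, ?_, by rw [q_smul hQ, hu₀, mul_zero],
        by rw [q_sub hQ, q_smul hQ, q_smul hQ, hu₀, hv₀, map_smul, map_smul, LinearMap.smul_apply, hv₀u]; simp,
        by simp [map_sub, map_smul, LinearMap.smul_apply, huv₀, huu, -bform_apply],
        by rw [map_smul, ← hpdef, smul_eq_mul, inv_mul_cancel₀ hp],
        by rw [map_sub, map_smul, map_smul, ← hpdef, ← hqdef, smul_eq_mul, smul_eq_mul]; ring, ?_, ?_⟩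
      · rw [ex, eichlerMat_smul_left hQ, smul_sub, smul_smul, smul_smul, inv_mul_cancel₀ hp, one_smul,
          sub_eq_add_neg, ← neg_smul, eichlerMat_add_smul hQ hu₀ huv₀]
      · intro h0
        refine hind₀ (q / p) ?_
        rw [div_eq_inv_mul, mul_smul, ← sub_eq_zero.1 h0, smul_smul, inv_mul_cancel₀ hp, one_smul]
      · intro c hcW hcQ hc0 h1 h2
        rw [map_smul, LinearMap.smul_apply, smul_eq_mul, mul_eq_zero] at h1
        have h1' := h1.resolve_left (inv_ne_zero hp)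
        rw [map_sub, LinearMap.sub_apply, map_smul, map_smul, LinearMap.smul_apply, LinearMap.smul_apply, h1',
          smul_zero, sub_zero, smul_eq_mul, mul_eq_zero] at h2
        exact hc c hcW hcQ hc0 h1' (h2.resolve_left hp)
  clear ex hu₀ hv₀ huv₀ hind₀ hu₀0 hc
  have hua : bform hR.nondeg u a = 1 := by rw [b_symm hR.nondeg, hau]
  have hva : bform hR.nondeg v a = 0 := by rw [b_symm hR.nondeg, hav]
  have hvu : bform hR.nondeg v u = 0 := by rw [b_symm hR.nondeg, huv]
  have huu : bform hR.nondeg u u = 0 := by rw [b_self hR.nondeg, huQ, mul_zero]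
  have hvv : bform hR.nondeg v v = 0 := by rw [b_self hR.nondeg, hvQ, mul_zero]
  have haa : bform hR.nondeg a a = 0 := by rw [b_self hR.nondeg, haQ, mul_zero]
  have hxy : ∀ y, (x : Matrix ι ι F) *ᵥ y = y + bform hR.nondeg v y • u - bform hR.nondeg u y • v := fun y => by
    rw [exuv, eichlerMat_mulVec hR.nondeg, hvQ]; simp only [zero_mul, zero_smul, sub_zero]
  -- `v` is not on a rational line
  have hvl : ∀ (s : F) (w : ι → F), QW F₀ P w → v ≠ s • w := by
    intro s w hw e
    have hs : s ≠ 0 := fun h0 => hind (by rw [e, h0, zero_smul])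
    have hwQ : Q w = 0 := by
      have := hvQ
      rw [e, q_smul hR.nondeg] at this
      exact (mul_eq_zero.1 this).resolve_left (pow_ne_zero _ hs)
    have hw0 : w ≠ 0 := fun h0 => hind (by rw [e, h0, smul_zero])
    have hwu : bform hR.nondeg w (s • -u) = 0 := by
      rw [e, map_smul, LinearMap.smul_apply, smul_eq_mul, mul_eq_zero] at hvu
      rw [map_smul, map_neg, hvu.resolve_left hs, neg_zero, smul_zero]
    obtain ⟨w₂, hw₂, t, et⟩ := hno w (s • -u) hw hw0 hwQ hwu ⟨x, hx, by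
      rw [exuv, e, eichlerMat_swap hR.nondeg huQ (by rw [q_smul hR.nondeg, hwQ, mul_zero]),
        eichlerMat_smul_left hR.nondeg]⟩
    obtain ⟨c, hcW, hcQ, hc0, hcp, -⟩ := exists_qw_singular hR ![w, w₂] (![] : Fin 0 → ι → F)
      (by simp [Fin.forall_fin_two, hw, hw₂]) (by simp) (by omega)
    refine hnone c hcW hcQ hc0 ?_ (by rw [e, map_smul, LinearMap.smul_apply, show bform hR.nondeg w c = 0 from hcp 0, smul_zero])
    have h := congrArg (fun z => bform hR.nondeg z c) et
    simp only [map_smul, map_neg, map_add, LinearMap.smul_apply, LinearMap.add_apply, LinearMap.neg_apply,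
      show bform hR.nondeg w c = 0 from hcp 0, show bform hR.nondeg w₂ c = 0 from hcp 1, smul_zero, add_zero,
      smul_eq_mul, mul_zero, mul_eq_zero, neg_eq_zero] at h
    exact h.resolve_left hs
  -- `v` has no small rational hull
  have small : ∀ a₁ a₂ a₃, QW F₀ P a₁ → QW F₀ P a₂ → QW F₀ P a₃ →
      v ∉ Submodule.span F (Set.range ![a₁, a₂, a₃]) := by
    intro a₁ a₂ a₃ h₁ h₂ h₃ hv
    obtain ⟨c, hcW, hcQ, hc0, h1, h2⟩ := fix_of_small hR hn hH hM hno hx exuv huQ hvQ huv hvl h₁ h₂ h₃ hv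
    exact hnone c hcW hcQ hc0 h1 h2
  -- degree three: a rational vector perpendicular to both
  have hr4 : 3 < r := by
    by_contra hle
    let L : (ι → F₀) →ₗ[F₀] F₀ × F :=
      { toFun := fun y => (⟨bform hR.nondeg a (qemb P y), qw_b_mem hR ha (qw_qemb y)⟩, bform hR.nondeg v (qemb P y))
        map_add' := fun y z => Prod.ext (Subtype.ext (by simp only [qemb_add, map_add, Prod.fst_add, Subfield.coe_add]))
          (by simp only [qemb_add, map_add, Prod.snd_add])
        map_smul' := fun c y => Prod.ext (Subtype.ext (by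
            simp only [qemb_smul, map_smul, RingHom.id_apply, Prod.smul_fst, smul_eq_mul, Subfield.coe_mul]))
          (by simp only [qemb_smul, map_smul, RingHom.id_apply, Prod.smul_snd]; rfl) }
    have h1 := LinearMap.finrank_range_add_finrank_ker L
    have h2 := Submodule.finrank_le (LinearMap.range L)
    rw [finrank_fintype_fun_eq_card] at h1
    rw [Module.finrank_prod, finrank_eq_prime hR hr hcard, finrank_self] at h2
    obtain ⟨a', ea'⟩ := exists_qemb ha
    obtain ⟨w', hw', hw'N⟩ : ∃ w ∈ LinearMap.ker L, w ∉ Submodule.span F₀ (Set.range ![a']) := by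
      refine SetLike.not_le_iff_exists.1 fun hle' => ?_
      have h3 := Submodule.finrank_mono hle'
      have h4 : finrank F₀ (Submodule.span F₀ (Set.range ![a'])) ≤ 1 :=
        (finrank_range_le_card _).trans (Fintype.card_fin 1).le
      omega
    obtain ⟨w, hwdef⟩ : ∃ w, w = qemb P w' := ⟨_, rfl⟩
    have hw : QW F₀ P w := hwdef ▸ qw_qemb w'
    have haw : bform hR.nondeg a w = 0 := hwdef ▸ congrArg Subtype.val (congrArg Prod.fst hw')
    have hvw : bform hR.nondeg v w = 0 := hwdef ▸ congrArg Prod.snd hw'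
    have hwN : ∀ t : F, w ≠ t • a := fun t h => hw'N (qw_descent (P := P) (by
      rw [← hwdef, h]
      exact Submodule.smul_mem _ _ (Submodule.subset_span ⟨0, ea'⟩)))
    obtain ⟨z, hz, ez⟩ := (eIn_rational hR hn hH hM ha hw haQ haw).conj hR.nondeg haQ haw hx
      (isometry_of_mem hR hM hx)
    have hxa : (x : Matrix ι ι F) *ᵥ a = a - v := by rw [hxy, hva, hua]; simp [sub_eq_add_neg]
    have hxw : (x : Matrix ι ι F) *ᵥ w = w - bform hR.nondeg u w • v := by rw [hxy, hvw]; simp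
    rw [hxa, hxw] at ez
    set σ := bform hR.nondeg u w with hσ
    have hQxw : Q (w - σ • v) = Q w := by
      rw [q_sub hR.nondeg, q_smul hR.nondeg, hvQ, map_smul, b_symm hR.nondeg w v, hvw]; simp
    have hzq : ∀ q, (z : Matrix ι ι F) *ᵥ q = q + (bform hR.nondeg w q - σ * bform hR.nondeg v q) • (a - v) -
        (bform hR.nondeg a q - bform hR.nondeg v q) • (w - σ • v) -
        (Q w * (bform hR.nondeg a q - bform hR.nondeg v q)) • (a - v) := fun q => by
      rw [ez, eichlerMat_mulVec hR.nondeg, hQxw]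
      simp only [map_sub, map_smul, LinearMap.sub_apply, LinearMap.smul_apply, smul_eq_mul]
    have hza : (z : Matrix ι ι F) *ᵥ a = a := by
      rw [hzq, b_symm hR.nondeg w a, haw, hva, haa]; simp
    have hpW := preserves_of_fix_point hR hn hH hM hno hz ha ha0 haQ hza
    have hzero : ∀ q, QW F₀ P q → bform hR.nondeg a q = 0 →
        bform hR.nondeg w q + Q w * bform hR.nondeg v q = 0 := by
      intro q hq haq
      by_contra hne
      set γ := bform hR.nondeg w q + Q w * bform hR.nondeg v q with hγ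
      have h5 := (hpW q hq).sub hq
      rw [hzq, haq] at h5
      refine small a w _ ha hw h5 ?_
      rw [Submodule.mem_span_range_iff_exists_fun]
      refine ⟨![γ⁻¹ * (γ - σ * bform hR.nondeg v q), γ⁻¹ * bform hR.nondeg v q, -γ⁻¹], ?_⟩
      simp only [Fin.sum_univ_three, Matrix.cons_val_zero, Matrix.cons_val_one, Matrix.cons_val]
      match_scalars <;> field_simp <;> ring
    obtain ⟨ya, hya, -, hay⟩ := exists_qw_pair_one hR (![] : Fin 0 → ι → F) (c := a) (by simp) ha (by simp [ha0])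
    set κ := bform hR.nondeg w ya + Q w * bform hR.nondeg v ya with hκ
    have hz0 : w + Q w • v - κ • a = 0 := qw_perp_eq_zero hR fun q hq => by
      have h5 := hzero (q - bform hR.nondeg a q • ya) (hq.sub (hya.smul (qw_b_mem hR ha hq)))
        (by rw [map_sub, map_smul, hay]; simp)
      simp only [map_sub, map_add, map_smul, LinearMap.sub_apply, LinearMap.add_apply, LinearMap.smul_apply,
        smul_eq_mul] at h5 ⊢
      linear_combination h5 + bform hR.nondeg a q * hκ - bform hR.nondeg a q * hκ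
    by_cases hwQ : Q w = 0
    · rw [hwQ, zero_smul, add_zero, sub_eq_zero] at hz0
      exact hwN _ hz0
    · refine small a w w ha hw hw ?_
      rw [Submodule.mem_span_range_iff_exists_fun]
      refine ⟨![(Q w)⁻¹ * κ, -(Q w)⁻¹, 0], ?_⟩
      simp only [Fin.sum_univ_three, Matrix.cons_val_zero, Matrix.cons_val_one, Matrix.cons_val]
      linear_combination (norm := skip) (-(Q w)⁻¹) • hz0
      match_scalars <;> field_simp <;> ring
  -- the second vector
  obtain ⟨b, hb, hbQ, hab, hp⟩ : ∃ b, QW F₀ P b ∧ Q b = 0 ∧ bform hR.nondeg a b = 0 ∧ bform hR.nondeg v b ≠ 0 := by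
    by_contra hno'
    push Not at hno'
    obtain ⟨ya, hya, -, hay⟩ := exists_qw_pair_one hR (![] : Fin 0 → ι → F) (c := a) (by simp) ha (by simp [ha0])
    have hz : v - bform hR.nondeg v ya • a = 0 := qw_perp_eq_zero hR fun y hy => by
      have hm : bform hR.nondeg v (y - bform hR.nondeg a y • ya) = 0 :=
        qw_singular_induction hR ![a] (by simp [ha]) (by omega) (fun z => bform hR.nondeg v z = 0)
          (fun x y _ _ h h' => by rw [map_add, h, h', add_zero]) (fun s hs hsQ hsp => hno' s hs hsQ (hsp 0))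
          (hy.sub (hya.smul (qw_b_mem hR ha hy))) (by simp [hay, -bform_apply])
      rw [map_sub, LinearMap.sub_apply, map_smul, LinearMap.smul_apply, smul_eq_mul]
      rw [map_sub, map_smul, smul_eq_mul] at hm
      linear_combination hm
    exact hvl _ a ha (sub_eq_zero.1 hz)
  set p := bform hR.nondeg v b with hpdef
  have hbN : ∀ t : F, b ≠ t • a := fun t h => hp (by rw [hpdef, h, map_smul, hva, smul_zero])
  obtain ⟨yb0, hyb0, hyb0p, hbyb0⟩ := exists_qw_pair_one hR ![a] (c := b) (by simp [ha]) hb (by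
    simp only [Matrix.range_cons, Matrix.range_empty, Set.union_empty, Submodule.mem_span_singleton]
    rintro ⟨t, ht⟩; exact hbN t ht.symm)
  -- the third vector
  obtain ⟨b', hb', hb'Q, hab', hbb', hρ⟩ : ∃ b', QW F₀ P b' ∧ Q b' = 0 ∧ bform hR.nondeg a b' = 0 ∧
      bform hR.nondeg b b' = 0 ∧ bform hR.nondeg v b' / p ∉ F₀ := by
    by_contra hno'
    push Not at hno'
    obtain ⟨ya, hya, hyap, hay⟩ := exists_qw_pair_one hR ![b] (c := a) (by simp [hb]) ha (by
      simp only [Matrix.range_cons, Matrix.range_empty, Set.union_empty, Submodule.mem_span_singleton]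
      rintro ⟨t, ht⟩
      refine hbN t⁻¹ ?_
      rw [← ht, smul_smul, inv_mul_cancel₀ (fun h0 => ha0 (by rw [← ht, h0, zero_smul])), one_smul])
    have hmem : ∀ z, QW F₀ P z → bform hR.nondeg a z = 0 → bform hR.nondeg b z = 0 →
        bform hR.nondeg v z / p ∈ F₀ := fun z hz h1 h2 =>
      qw_singular_induction hR ![a, b] (by simp [Fin.forall_fin_two, ha, hb]) (by omega)
        (fun z => bform hR.nondeg v z / p ∈ F₀)
        (fun x y _ _ h h' => by rw [map_add, add_div]; exact F₀.add_mem h h')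
        (fun s hs hsQ hsp => hno' s hs hsQ (hsp 0) (hsp 1)) hz (by simp [Fin.forall_fin_two, h1, h2, -bform_apply])
    set z := p⁻¹ • v - (p⁻¹ * bform hR.nondeg v ya) • a - (p⁻¹ * bform hR.nondeg v yb0) • b with hzdef
    have hz : QW F₀ P z := qw_of_b_mem hR fun y hy => by
      have h := hmem (y - bform hR.nondeg a y • ya - bform hR.nondeg b y • yb0)
        ((hy.sub (hya.smul (qw_b_mem hR ha hy))).sub (hyb0.smul (qw_b_mem hR hb hy)))
        (by rw [map_sub, map_sub, map_smul, map_smul, hay, show bform hR.nondeg a yb0 = 0 from hyb0p 0]; simp)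
        (by rw [map_sub, map_sub, map_smul, map_smul, hbyb0, show bform hR.nondeg b ya = 0 from hyap 0]; simp)
      convert h using 1
      simp only [hzdef, map_sub, map_smul, LinearMap.sub_apply, LinearMap.smul_apply, smul_eq_mul]
      ring
    refine small z a b hz ha hb ?_
    rw [Submodule.mem_span_range_iff_exists_fun]
    refine ⟨![p, bform hR.nondeg v ya, bform hR.nondeg v yb0], ?_⟩
    simp only [Fin.sum_univ_three, Matrix.cons_val_zero, Matrix.cons_val_one, Matrix.cons_val, hzdef]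
    match_scalars <;> field_simp <;> ring
  obtain ⟨π', hπ'⟩ : ∃ π', π' = bform hR.nondeg v b' := ⟨_, rfl⟩
  rw [← hπ'] at hρ
  obtain ⟨ρ, hρdef⟩ : ∃ ρ, ρ = π' / p := ⟨_, rfl⟩
  rw [← hρdef] at hρ
  obtain ⟨bu, hbu⟩ : ∃ bu, bu = bform hR.nondeg b u := ⟨_, rfl⟩
  obtain ⟨b'u, hb'u⟩ : ∃ b'u, b'u = bform hR.nondeg b' u := ⟨_, rfl⟩
  obtain ⟨k, hk⟩ : ∃ k, k = b'u - ρ * bu := ⟨_, rfl⟩
  obtain ⟨R, hRdef⟩ : ∃ R, R = b' - ρ • b - k • a := ⟨_, rfl⟩
  obtain ⟨β, hβdef⟩ : ∃ β, β = p⁻¹ • (b - bu • a) := ⟨_, rfl⟩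
  have hb'N : b' ∉ Submodule.span F (Set.range ![a, b]) := by
    rw [span_pair_range, Submodule.mem_span_pair]
    rintro ⟨s, t, ht⟩
    have h1 : π' = t * p := by
      rw [hπ', ← ht, map_add, map_smul, map_smul, hva, ← hpdef, smul_zero, zero_add, smul_eq_mul]
    have h2 : bform hR.nondeg b' yb0 = t := by
      rw [← ht, map_add, LinearMap.add_apply, map_smul, map_smul, LinearMap.smul_apply, LinearMap.smul_apply,
        show bform hR.nondeg a yb0 = 0 from hyb0p 0, hbyb0]
      simp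
    exact hρ (by rw [hρdef, h1, mul_div_cancel_right₀ _ hp, ← h2]; exact qw_b_mem hR hb' hyb0)
  have haN : a ∉ Submodule.span F (Set.range ![b, b']) := by
    rw [span_pair_range, Submodule.mem_span_pair]
    rintro ⟨s, t, ht⟩
    by_cases h0 : t = 0
    · rw [h0, zero_smul, add_zero] at ht
      refine hbN s⁻¹ ?_
      rw [← ht, smul_smul, inv_mul_cancel₀ (fun h => ha0 (by rw [← ht, h, zero_smul])), one_smul]
    · refine hb'N (by
        rw [span_pair_range, Submodule.mem_span_pair]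
        exact ⟨t⁻¹, -(t⁻¹ * s), by rw [← ht, smul_add, smul_smul, smul_smul, inv_mul_cancel₀ h0, neg_smul]; module⟩)
  have hbN2 : b ∉ Submodule.span F (Set.range ![a, b']) := by
    rw [span_pair_range, Submodule.mem_span_pair]
    rintro ⟨s, t, ht⟩
    by_cases h0 : t = 0
    · rw [h0, zero_smul, add_zero] at ht; exact hbN s ht.symm
    · refine hb'N (by
        rw [span_pair_range, Submodule.mem_span_pair]
        exact ⟨-(t⁻¹ * s), t⁻¹, by rw [← ht, smul_add, smul_smul, smul_smul, inv_mul_cancel₀ h0, neg_smul]; module⟩)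
  obtain ⟨ya, hya, hyap, hay⟩ := exists_qw_pair_one hR ![b, b'] (c := a)
    (by simp [Fin.forall_fin_two, hb, hb']) ha haN
  obtain ⟨yb, hyb, hybp, hbyb⟩ := exists_qw_pair_one hR ![a, b'] (c := b)
    (by simp [Fin.forall_fin_two, ha, hb']) hb hbN2
  obtain ⟨yc, hyc, hycp, hcyc⟩ := exists_qw_pair_one hR ![a, b] (c := b')
    (by simp [Fin.forall_fin_two, ha, hb]) hb' hb'N
  have hbya : bform hR.nondeg b ya = 0 := hyap 0
  have hb'ya : bform hR.nondeg b' ya = 0 := hyap 1
  have hayb : bform hR.nondeg a yb = 0 := hybp 0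
  have hb'yb : bform hR.nondeg b' yb = 0 := hybp 1
  have hayc : bform hR.nondeg a yc = 0 := hycp 0
  have hbyc : bform hR.nondeg b yc = 0 := hycp 1
  have hba : bform hR.nondeg b a = 0 := by rw [b_symm hR.nondeg, hab]
  have hb'a : bform hR.nondeg b' a = 0 := by rw [b_symm hR.nondeg, hab']
  have hb'b : bform hR.nondeg b' b = 0 := by rw [b_symm hR.nondeg, hbb']
  have hbb : bform hR.nondeg b b = 0 := by rw [b_self hR.nondeg, hbQ, mul_zero]
  have hb'b' : bform hR.nondeg b' b' = 0 := by rw [b_self hR.nondeg, hb'Q, mul_zero]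
  have hbv : bform hR.nondeg b v = p := by rw [b_symm hR.nondeg]
  have hb'v : bform hR.nondeg b' v = π' := by rw [b_symm hR.nondeg, hπ']
  have hρp : ρ * p = π' := by rw [hρdef, div_mul_cancel₀ _ hp]
  have hRl : ∀ (s : F) (w : ι → F), QW F₀ P w → R ≠ s • w := by
    intro s w hw e
    have h1 := congrArg (fun z => bform hR.nondeg z yc) e
    have h2 := congrArg (fun z => bform hR.nondeg z yb) e
    simp only [hRdef, map_sub, map_smul, LinearMap.sub_apply, LinearMap.smul_apply, smul_eq_mul, hcyc, hbyc, hayc,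
      hb'yb, hbyb, hayb, mul_zero, sub_zero, mul_one, zero_sub] at h1 h2
    apply hρ
    rw [show ρ = -(bform hR.nondeg w yb / bform hR.nondeg w yc) by
      rw [← neg_div, eq_div_iff (fun h0 => one_ne_zero (by rw [h1, h0, mul_zero]))]
      linear_combination bform hR.nondeg w yb * h1 - bform hR.nondeg w yc * h2]
    exact F₀.neg_mem (F₀.div_mem (qw_b_mem hR hw hyb) (qw_b_mem hR hw hyc))
  have eb : b = p • β + bu • a := by rw [hβdef, smul_smul, mul_inv_cancel₀ hp, one_smul, sub_add_cancel]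
  have eb' : b' = R + ρ • b + k • a := by rw [hRdef]; abel
  have haβ : bform hR.nondeg a β = 0 := by simp [hβdef, map_smul, map_sub, hab, haa, -bform_apply]
  have haR : bform hR.nondeg a R = 0 := by simp [hRdef, map_smul, map_sub, hab, hab', haa, -bform_apply]
  have hvβ : bform hR.nondeg v β = 1 := by
    simp [hβdef, map_smul, map_sub, ← hpdef, hva, hp, -bform_apply]
  have hvR : bform hR.nondeg v R = 0 := by
    simp [hRdef, map_smul, map_sub, ← hpdef, ← hπ', hva, hρp, -bform_apply]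
  have huβ : bform hR.nondeg u β = 0 := by
    simp [hβdef, map_smul, map_sub, b_symm hR.nondeg u b, ← hbu, hua, -bform_apply]
  have huR : bform hR.nondeg u R = 0 := by
    simp [hRdef, map_smul, map_sub, b_symm hR.nondeg u b, b_symm hR.nondeg u b', ← hbu, ← hb'u, hua, hk,
      -bform_apply]
  have hββ : bform hR.nondeg β β = 0 := by
    simp [hβdef, map_smul, map_sub, hab, haa, hba, hbb, -bform_apply]
  have hβR : bform hR.nondeg β R = 0 := by
    simp [hβdef, hRdef, map_smul, map_sub, hab, hab', haa, hba, hbb, hbb', -bform_apply]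
  have hRR : bform hR.nondeg R R = 0 := by
    simp [hRdef, map_smul, map_sub, hab, hab', haa, hba, hbb, hbb', hb'a, hb'b, hb'b', -bform_apply]
  -- the plane group
  let Kset : Set (GL (Fin 2) F) := {m | ∃ g ∈ M, ∃ α₃ α₄ : F,
    (g : Matrix ι ι F) *ᵥ a = m 0 0 • a + m 1 0 • v ∧
    (g : Matrix ι ι F) *ᵥ v = m 0 1 • a + m 1 1 • v ∧
    (g : Matrix ι ι F) *ᵥ β = m 0 0 • β - m 1 0 • u + α₃ • R ∧
    (g : Matrix ι ι F) *ᵥ u = (-(m 0 1)) • β + m 1 1 • u + α₄ • R ∧
    (g : Matrix ι ι F) *ᵥ R = R ∧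
    ∀ z, bform hR.nondeg a z = 0 → bform hR.nondeg v z = 0 → bform hR.nondeg β z = 0 → bform hR.nondeg u z = 0 →
      bform hR.nondeg R z = 0 → (g : Matrix ι ι F) *ᵥ z = z}
  have hone : (1 : GL (Fin 2) F) ∈ Kset :=
    ⟨1, M.one_mem, 0, 0, by simp, by simp, by simp, by simp, by simp, fun z _ _ _ _ _ => by simp⟩
  have hmul : ∀ {m m'}, m ∈ Kset → m' ∈ Kset → m * m' ∈ Kset := by
    rintro m m' ⟨g, hg, α₃, α₄, ga, gv, gβ, gu, gR, gz⟩ ⟨g', hg', α₃', α₄', ga', gv', gβ', gu', gR', gz'⟩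
    refine ⟨g * g', M.mul_mem hg hg',
      m' 0 0 * α₃ - m' 1 0 * α₄ + α₃', -(m' 0 1) * α₃ + m' 1 1 * α₄ + α₄', ?_, ?_, ?_, ?_, ?_, ?_⟩
    · rw [Units.val_mul, ← Matrix.mulVec_mulVec, ga', Matrix.mulVec_add, Matrix.mulVec_smul, Matrix.mulVec_smul,
        ga, gv]
      simp only [Units.val_mul, Matrix.mul_apply, Fin.sum_univ_two]
      module
    · rw [Units.val_mul, ← Matrix.mulVec_mulVec, gv', Matrix.mulVec_add, Matrix.mulVec_smul, Matrix.mulVec_smul,
        ga, gv]
      simp only [Units.val_mul, Matrix.mul_apply, Fin.sum_univ_two]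
      module
    · rw [Units.val_mul, ← Matrix.mulVec_mulVec, gβ', Matrix.mulVec_add, Matrix.mulVec_sub, Matrix.mulVec_smul,
        Matrix.mulVec_smul, Matrix.mulVec_smul, gβ, gu, gR]
      simp only [Units.val_mul, Matrix.mul_apply, Fin.sum_univ_two]
      module
    · rw [Units.val_mul, ← Matrix.mulVec_mulVec, gu', Matrix.mulVec_add, Matrix.mulVec_add, Matrix.mulVec_smul,
        Matrix.mulVec_smul, Matrix.mulVec_smul, gβ, gu, gR]
      simp only [Units.val_mul, Matrix.mul_apply, Fin.sum_univ_two]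
      module
    · rw [Units.val_mul, ← Matrix.mulVec_mulVec, gR', gR]
    · intro z h1 h2 h3 h4 h5
      rw [Units.val_mul, ← Matrix.mulVec_mulVec, gz' z h1 h2 h3 h4 h5, gz z h1 h2 h3 h4 h5]
  let K : Subgroup (GL (Fin 2) F) :=
    { carrier := Kset
      one_mem' := hone
      mul_mem' := hmul
      inv_mem' := fun {m} hm => by
        have hpow : ∀ i : ℕ, m ^ i ∈ Kset := fun i => by
          induction i with
          | zero => simpa using hone
          | succ i ih => rw [pow_succ]; exact hmul ih hm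
        have : m⁻¹ = m ^ (orderOf m - 1) := by
          refine inv_eq_of_mul_eq_one_right ?_
          rw [← pow_succ', Nat.sub_add_cancel (orderOf_pos m), pow_orderOf_eq_one]
        rw [this]; exact hpow _ }
  let U : AddSubgroup F :=
    { carrier := {y | ∃ c₁ ∈ F₀, ∃ c₂ ∈ F₀, y = p * (c₁ + c₂ * ρ)}
      zero_mem' := ⟨0, F₀.zero_mem, 0, F₀.zero_mem, by ring⟩
      add_mem' := by
        rintro _ _ ⟨a, ha, b, hb, rfl⟩ ⟨c, hc, d, hd, rfl⟩
        exact ⟨a + c, F₀.add_mem ha hc, b + d, F₀.add_mem hb hd, by ring⟩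
      neg_mem' := by
        rintro _ ⟨a, ha, b, hb, rfl⟩
        exact ⟨-a, F₀.neg_mem ha, -b, F₀.neg_mem hb, by ring⟩ }
  have hUF : ∀ c ∈ F₀, ∀ y ∈ U, c * y ∈ U := by
    rintro c hc _ ⟨a, ha, b, hb, rfl⟩
    exact ⟨c * a, F₀.mul_mem hc ha, c * b, F₀.mul_mem hc hb, by ring⟩
  have hUK : ∀ y ∈ U, upperT y ∈ K := by
    rintro _ ⟨c₁, h₁, c₂, h₂, rfl⟩
    set w := c₁ • b + c₂ • b' with hw
    have hwQ : Q w = 0 := by
      rw [hw, q_add hR.nondeg, q_smul hR.nondeg, q_smul hR.nondeg, hbQ, hb'Q, map_smul, map_smul,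
        LinearMap.smul_apply, hbb']
      simp
    have haw : bform hR.nondeg a w = 0 := by rw [hw, map_add, map_smul, map_smul, hab, hab']; simp
    obtain ⟨g, hg, eg⟩ := eIn_rational hR hn hH hM ha ((hb.smul h₁).add (hb'.smul h₂)) haQ haw
    have hgy : ∀ z, (g : Matrix ι ι F) *ᵥ z = z + (c₁ * bform hR.nondeg b z + c₂ * bform hR.nondeg b' z) • a -
        bform hR.nondeg a z • (c₁ • b + c₂ • b') := fun z => by
      rw [eg, eichlerMat_mulVec hR.nondeg, hwQ]
      simp only [map_add, map_smul, LinearMap.add_apply, LinearMap.smul_apply, smul_eq_mul, zero_mul, zero_smul,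
        sub_zero]
    refine ⟨g, hg, 0, -c₂, ?_, ?_, ?_, ?_, ?_, ?_⟩
    · rw [hgy, hba, hb'a, haa]
      simp [upperT, Matrix.GeneralLinearGroup.mkOfDetNeZero]
    · rw [hgy, hbv, hb'v, hav]
      simp [upperT, Matrix.GeneralLinearGroup.mkOfDetNeZero]
      rw [← hρp]
      module
    · rw [hgy, haβ, show bform hR.nondeg b β = 0 by simp [hβdef, map_smul, map_sub, hba, hbb, -bform_apply],
        show bform hR.nondeg b' β = 0 by simp [hβdef, map_smul, map_sub, hb'a, hb'b, -bform_apply]]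
      simp [upperT, Matrix.GeneralLinearGroup.mkOfDetNeZero]
    · rw [hgy, hau, ← hbu, ← hb'u]
      simp [upperT, Matrix.GeneralLinearGroup.mkOfDetNeZero]
      rw [eb', eb, show b'u = k + ρ * bu by rw [hk]; ring]
      module
    · rw [hgy, haR, show bform hR.nondeg b R = 0 by simp [hRdef, map_smul, map_sub, hba, hbb, hbb', -bform_apply],
        show bform hR.nondeg b' R = 0 by simp [hRdef, map_smul, map_sub, hb'a, hb'b, hb'b', -bform_apply]]
      simp
    · intro z h1 h2 h3 h4 h5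
      have hbz : bform hR.nondeg b z = 0 := by
        rw [eb, map_add, map_smul, map_smul, LinearMap.add_apply, LinearMap.smul_apply, LinearMap.smul_apply, h3, h1]
        simp
      have hb'z : bform hR.nondeg b' z = 0 := by
        rw [eb', map_add, map_add, map_smul, map_smul, LinearMap.add_apply, LinearMap.add_apply,
          LinearMap.smul_apply, LinearMap.smul_apply, h5, hbz, h1]
        simp
      rw [hgy, hbz, hb'z, h1]; simp
  let g₀ : GL (Fin 2) F := Matrix.GeneralLinearGroup.mkOfDetNeZero !![1, 0; -1, 1] (by simp [Matrix.det_fin_two])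
  have hg₀ : g₀ ∈ K := ⟨x, hx, 0, 0,
    by rw [hxy, hva, hua]; simp [g₀, Matrix.GeneralLinearGroup.mkOfDetNeZero, sub_eq_add_neg],
    by rw [hxy, hvv, huv]; simp [g₀, Matrix.GeneralLinearGroup.mkOfDetNeZero],
    by rw [hxy, hvβ, huβ]; simp [g₀, Matrix.GeneralLinearGroup.mkOfDetNeZero],
    by rw [hxy, hvu, huu]; simp [g₀, Matrix.GeneralLinearGroup.mkOfDetNeZero],
    by rw [hxy, hvR, huR]; simp,
    fun z _ h2 _ h4 _ => by rw [hxy, h2, h4]; simp⟩
  have hall := exists_smul_upperT hr hcard K U hUF hUK (u₁ := p) (u₂ := p * ρ)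
    ⟨1, F₀.one_mem, 0, F₀.zero_mem, by ring⟩ ⟨0, F₀.zero_mem, 1, F₀.one_mem, by ring⟩ hp
    (by rwa [mul_div_cancel_left₀ _ hp]) (w := -1) (neg_ne_zero.2 one_ne_zero) hg₀ rfl
  classical
  obtain ⟨x₀, hx₀⟩ := exists_not_three (F₀ := F₀) inferInstance hr4
    (by rw [Nat.card_eq_fintype_card, hcard]) p ρ k
  obtain ⟨h, hhM, A₃, A₄, hha, hhv, hhβ, hhu, hhR, hhz⟩ : ∃ h ∈ M, ∃ A₃ A₄ : F,
      (h : Matrix ι ι F) *ᵥ a = a ∧ (h : Matrix ι ι F) *ᵥ v = x₀ • a + v ∧
      (h : Matrix ι ι F) *ᵥ β = β + A₃ • R ∧ (h : Matrix ι ι F) *ᵥ u = (-x₀) • β + u + A₄ • R ∧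
      (h : Matrix ι ι F) *ᵥ R = R ∧
      ∀ z, bform hR.nondeg a z = 0 → bform hR.nondeg v z = 0 → bform hR.nondeg β z = 0 → bform hR.nondeg u z = 0 →
        bform hR.nondeg R z = 0 → (h : Matrix ι ι F) *ᵥ z = z := by
    obtain ⟨m, ⟨g, hg, α₃, α₄, ga, gv, gβ, gu, gR, gz⟩, s, hs, hm⟩ :=
      hall (if (2 : F) = 0 then x₀ else x₀ / 2)
    rw [hm] at ga gv gβ gu
    simp only [Matrix.cons_val', Matrix.cons_val_zero, Matrix.cons_val_one, Matrix.of_apply,
      Matrix.empty_val', Matrix.cons_val_fin_one, zero_smul, add_zero, sub_zero] at ga gv gβ gu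
    generalize hx' : (if (2 : F) = 0 then x₀ else x₀ / 2) = x' at gv gu
    have hs2 : s ^ 2 = 1 := by
      have := isometry_b hR.nondeg (isometry_of_mem hR hM hg) a u
      rw [ga, gu, hau] at this
      simp only [map_add, map_smul, LinearMap.add_apply, LinearMap.smul_apply, smul_eq_mul, haβ, haR, hau,
        b_symm hR.nondeg R β, b_symm hR.nondeg R u, huR, hβR, hRR] at this
      linear_combination this
    by_cases h2 : (2 : F) = 0
    · rw [← hx', if_pos h2] at gv gu
      have hs1 : s = 1 := by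
        have : (s - 1) ^ 2 = 0 := by linear_combination hs2 + (1 - s) * h2
        exact sub_eq_zero.mp (pow_eq_zero_iff two_ne_zero |>.mp this)
      subst hs1
      exact ⟨g, hg, α₃, α₄, by simpa using ga, by simpa using gv, by simpa using gβ, by simpa using gu,
        gR, gz⟩
    · rw [← hx', if_neg h2] at gv gu
      have hss : s * s = 1 := by rw [← sq, hs2]
      have hx2 : x₀ / 2 + x₀ / 2 = x₀ := by field_simp; ring
      refine ⟨g * g, M.mul_mem hg hg, s * α₃ + α₃,
        -(s * (x₀ / 2)) * α₃ + s * α₄ + α₄, ?_, ?_, ?_, ?_,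
        by rw [Units.val_mul, ← Matrix.mulVec_mulVec, gR, gR],
        fun z h1 h2 h3 h4 h5 => by
          rw [Units.val_mul, ← Matrix.mulVec_mulVec, gz z h1 h2 h3 h4 h5, gz z h1 h2 h3 h4 h5]⟩
      · rw [Units.val_mul, ← Matrix.mulVec_mulVec, ga, Matrix.mulVec_smul, ga]
        linear_combination (norm := module) hss • a
      · rw [Units.val_mul, ← Matrix.mulVec_mulVec, gv, Matrix.mulVec_add, Matrix.mulVec_smul,
          Matrix.mulVec_smul, ga, gv]
        linear_combination (norm := module) hss • ((x₀ / 2 + x₀ / 2) • a + v) + hx2 • a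
      · rw [Units.val_mul, ← Matrix.mulVec_mulVec, gβ, Matrix.mulVec_add, Matrix.mulVec_smul, Matrix.mulVec_smul,
          gβ, gR]
        linear_combination (norm := module) hss • β
      · rw [Units.val_mul, ← Matrix.mulVec_mulVec, gu, Matrix.mulVec_add, Matrix.mulVec_add, Matrix.mulVec_smul,
          Matrix.mulVec_smul, Matrix.mulVec_smul, gβ, gu, gR]
        linear_combination (norm := module) hss • ((-(x₀ / 2 + x₀ / 2)) • β + u) - hx2 • β
  have hgI := isometry_of_mem hR hM hhM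
  -- `h` fixes `a` and so preserves the rational vectors; then it fixes `b` and `b'`
  have hpW := preserves_of_fix_point hR hn hH hM hno hhM ha ha0 haQ hha
  have hA₃ : A₃ = 0 := by
    by_contra h0
    have h1 := (hpW b hb).sub hb
    rw [eb, Matrix.mulVec_add, Matrix.mulVec_smul, Matrix.mulVec_smul, hhβ, hha, ← eb] at h1
    refine hRl (p * A₃)⁻¹ _ h1 ?_
    rw [eb]
    match_scalars <;> field_simp <;> ring
  rw [hA₃, zero_smul, add_zero] at hhβ
  have hhb : (h : Matrix ι ι F) *ᵥ b = b := by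
    rw [eb, Matrix.mulVec_add, Matrix.mulVec_smul, Matrix.mulVec_smul, hhβ, hha]
  have hhb' : (h : Matrix ι ι F) *ᵥ b' = b' := by
    rw [eb', Matrix.mulVec_add, Matrix.mulVec_add, Matrix.mulVec_smul, Matrix.mulVec_smul, hhR, hhb, hha]
  have hfixπ : ∀ z, bform hR.nondeg a z = 0 → bform hR.nondeg b z = 0 → bform hR.nondeg b' z = 0 →
      (h : Matrix ι ι F) *ᵥ z = z := by
    intro z h1 h2 h3
    set c' := z - bform hR.nondeg u z • a - bform hR.nondeg v z • β with hc'
    have hfix : (h : Matrix ι ι F) *ᵥ c' = c' := hhz c'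
      (by simp [hc', map_sub, map_smul, h1, haa, haβ, -bform_apply])
      (by simp [hc', map_sub, map_smul, hva, hvβ, -bform_apply])
      (by simp [hc', map_sub, map_smul, hββ, b_symm hR.nondeg β a, haβ, -bform_apply]
          simp [hβdef, map_sub, map_smul, h1, h2, -bform_apply])
      (by simp [hc', map_sub, map_smul, hua, huβ, -bform_apply])
      (by simp [hc', map_sub, map_smul, b_symm hR.nondeg R a, haR, b_symm hR.nondeg R β, hβR, -bform_apply]
          simp [hRdef, map_sub, map_smul, h1, h2, h3, -bform_apply])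
    rw [hc', Matrix.mulVec_sub, Matrix.mulVec_sub, Matrix.mulVec_smul, Matrix.mulVec_smul, hha, hhβ] at hfix
    simpa using hfix
  obtain ⟨D, hD⟩ : ∃ D : (ι → F) → (ι → F), ∀ y, D y = (h : Matrix ι ι F) *ᵥ y - y := ⟨_, fun y => rfl⟩
  let π : (ι → F) →ₗ[F] (ι → F) := LinearMap.id - (bform hR.nondeg a).smulRight ya -
    (bform hR.nondeg b).smulRight yb - (bform hR.nondeg b').smulRight yc
  have hπ : ∀ y, π y = y - bform hR.nondeg a y • ya - bform hR.nondeg b y • yb - bform hR.nondeg b' y • yc :=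
    fun y => rfl
  have hπfix : ∀ y, (h : Matrix ι ι F) *ᵥ π y = π y := fun y => hfixπ _
    (by simp [hπ, map_sub, map_smul, hay, hayb, hayc, -bform_apply])
    (by simp [hπ, map_sub, map_smul, hbya, hbyb, hbyc, -bform_apply])
    (by simp [hπ, map_sub, map_smul, hb'ya, hb'yb, hcyc, -bform_apply])
  have hDπ : ∀ y z, bform hR.nondeg (D y) (π z) = 0 := fun y z => by
    rw [hD, map_sub, LinearMap.sub_apply, sub_eq_zero]
    conv_lhs => rw [← hπfix z]
    exact isometry_b hR.nondeg hgI _ _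
  have hDexp : ∀ y, D y = bform hR.nondeg (D y) ya • a + bform hR.nondeg (D y) yb • b +
      bform hR.nondeg (D y) yc • b' := by
    intro y
    refine sub_eq_zero.1 (qw_perp_eq_zero hR fun z _ => ?_)
    have h1 := hDπ y z
    rw [hπ, map_sub, map_sub, map_sub, map_smul, map_smul, map_smul, smul_eq_mul, smul_eq_mul, smul_eq_mul] at h1
    simp only [map_sub, map_add, map_smul, LinearMap.sub_apply, LinearMap.add_apply, LinearMap.smul_apply,
      smul_eq_mul]
    linear_combination h1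
  have hDQ : ∀ y, bform hR.nondeg (D y) y = 0 := by
    intro y
    have h1 := mem_isometryGroup.1 hgI y
    rw [show (h : Matrix ι ι F) *ᵥ y = D y + y by rw [hD, sub_add_cancel], q_add hR.nondeg] at h1
    have h2 : Q (D y) = 0 := by
      rw [hDexp y]
      simp only [q_add hR.nondeg, q_smul hR.nondeg, map_add, map_smul, LinearMap.add_apply, LinearMap.smul_apply,
        smul_eq_mul, haQ, hbQ, hb'Q, hab, hab', hbb']
      ring
    linear_combination h1 - h2
  have hanti : bform hR.nondeg (D yb) yc + bform hR.nondeg (D yc) yb = 0 := by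
    have h1 := hDQ (yb + yc)
    have h2 : D (yb + yc) = D yb + D yc := by rw [hD, hD, hD, Matrix.mulVec_add]; abel
    rw [h2] at h1
    simp only [map_add, LinearMap.add_apply, hDQ yb, hDQ yc] at h1
    linear_combination h1
  have hu_eq : D u = D ya + bu • D yb + b'u • D yc := by
    have h1 := hπfix u
    rw [hπ, hau, ← hbu, ← hb'u, one_smul, Matrix.mulVec_sub, Matrix.mulVec_sub, Matrix.mulVec_sub,
      Matrix.mulVec_smul, Matrix.mulVec_smul] at h1
    simp only [hD]
    linear_combination (norm := module) h1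
  have hDv : ∀ y, bform hR.nondeg (D y) v = p * bform hR.nondeg (D y) yb + π' * bform hR.nondeg (D y) yc := by
    intro y
    have h1 := hDπ y v
    rw [hπ, hav, hbv, hb'v] at h1
    simp only [map_sub, map_smul, smul_eq_mul, zero_smul, sub_zero] at h1
    linear_combination h1
  have hm : ∀ y z, QW F₀ P y → QW F₀ P z → bform hR.nondeg (D y) z ∈ F₀ := fun y z hy hz => by
    rw [hD]; exact qw_b_mem hR ((hpW y hy).sub hy) hz
  refine hx₀ (-bform hR.nondeg (D ya) yb) (F₀.neg_mem (hm _ _ hya hyb)) (-bform hR.nondeg (D ya) yc)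
    (F₀.neg_mem (hm _ _ hya hyc)) (bform hR.nondeg (D yb) yc) (hm _ _ hyb hyc) ?_
  have hlhs : bform hR.nondeg (D u) v = -x₀ := by
    rw [hD, hhu, map_sub, map_add, map_add, map_smul, map_smul, LinearMap.sub_apply, LinearMap.add_apply,
      LinearMap.add_apply, LinearMap.smul_apply, LinearMap.smul_apply, huv, b_symm hR.nondeg β v, hvβ,
      b_symm hR.nondeg R v, hvR]
    simp
  rw [hu_eq] at hlhs
  simp only [map_add, map_smul, LinearMap.add_apply, LinearMap.smul_apply, smul_eq_mul, hDv, hDQ yb, hDQ yc] at hlhs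
  rw [← hρp] at hlhs
  rw [hk]
  linear_combination hlhs - b'u * p * hanti

/-- Without irrational root elements at rational points, the overgroup is the subfield group. -/
theorem le_subO_of_noIrr : M ≤ SubO Q F₀ P := by
  intro g hg
  refine ⟨?_, hM hg⟩
  by_contra hgH
  obtain ⟨a, ha, haQ, ha0, -, -⟩ := exists_qw_singular hR (![] : Fin 0 → ι → F) (![] : Fin 0 → ι → F)
    (by simp) (by simp) (by omega)
  obtain ⟨b, hb, hbQ, hb0, hab, hbN⟩ := exists_qw_singular hR ![a] ![a] (by simp [ha]) (by simp [ha]) (by omega)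
  obtain ⟨b', hb', hb'Q, hb'0, hab', hb'N⟩ := exists_qw_singular hR ![a] ![a, b] (by simp [ha])
    (by simp [Fin.forall_fin_two, ha, hb]) (by omega)
  simp only [Matrix.range_cons, Matrix.range_empty, Set.union_empty, Submodule.mem_span_singleton] at hbN
  rw [span_pair_range, Submodule.mem_span_pair] at hb'N
  have hgI := isometry_of_mem hR hM hg
  have hginj : ∀ {y z}, (g : Matrix ι ι F) *ᵥ y = (g : Matrix ι ι F) *ᵥ z → y = z := fun {y z} e => by
    rw [← inv_mulVec_cancel g y, e, inv_mulVec_cancel]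
  set G := fun y => (g : Matrix ι ι F) *ᵥ y with hG
  have plane : ∀ e, QW F₀ P e → Q e = 0 → bform hR.nondeg a e = 0 → (∀ t : F, t • a ≠ e) →
      ∃ w w', QW F₀ P w ∧ QW F₀ P w' ∧ w ∈ Submodule.span F {G a, G e} ∧ w' ∈ Submodule.span F {G a, G e} ∧
        G a ∈ Submodule.span F {w, w'} ∧ w ≠ 0 ∧ ∀ t : F, t • w ≠ w' := by
    intro e he heQ hae hne
    obtain ⟨x, hx, ex⟩ := (eIn_rational hR hn hH hM ha he haQ hae).conj hR.nondeg haQ hae hg hgI
    have hQa : Q (G a) = 0 := by rw [hG, mem_isometryGroup.1 hgI, haQ]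
    have hQe : Q (G e) = 0 := by rw [hG, mem_isometryGroup.1 hgI, heQ]
    have hbe : bform hR.nondeg (G a) (G e) = 0 := by rw [hG, isometry_b hR.nondeg hgI, hae]
    have hGa0 : G a ≠ 0 := mulVec_ne_zero_gl ha0
    have hGind : ∀ t : F, G e ≠ t • G a := fun t h => hne t (hginj (by
      rw [Matrix.mulVec_smul]; exact h.symm))
    obtain ⟨c, hc, hcQ, hc0, h1, h2⟩ := rational_pair hR hn hH hM hno hr hcard hx ex hQa hQe hbe hGind hGa0
    have hxy : ∀ y, (x : Matrix ι ι F) *ᵥ y = y + bform hR.nondeg (G e) y • G a - bform hR.nondeg (G a) y • G e :=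
      fun y => by rw [ex, eichlerMat_mulVec hR.nondeg, hQe]; simp only [zero_mul, zero_smul, sub_zero, hG]
    have hpW := preserves_of_fix_point hR hn hH hM hno hx hc hc0 hcQ (by rw [hxy, h1, h2]; simp)
    let T : (ι → F) →ₗ[F] (ι → F) := (bform hR.nondeg (G e)).smulRight (G a) - (bform hR.nondeg (G a)).smulRight (G e)
    have hT : ∀ y, T y = bform hR.nondeg (G e) y • G a - bform hR.nondeg (G a) y • G e := fun y => rfl
    have hTW : ∀ y, QW F₀ P y → QW F₀ P (T y) := fun y hy => by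
      have := (hpW y hy).sub hy
      rwa [hxy, add_sub_assoc, add_sub_cancel_left, ← hT] at this
    have hTm : ∀ y, T y ∈ Submodule.span F {G a, G e} := fun y => by
      rw [hT]
      exact sub_mem (Submodule.smul_mem _ _ (Submodule.subset_span (by simp)))
        (Submodule.smul_mem _ _ (Submodule.subset_span (by simp)))
    have hTa : ∃ y, T y = G a := by
      obtain ⟨y, -, hy, hy1⟩ := exists_b_one_mem hR.nondeg (S := ⊤) (T := Submodule.span F {G a}) (v := G e)
        (fun hm => by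
          obtain ⟨t, ht, z, hz, e'⟩ := Submodule.mem_sup.1 hm
          obtain rfl : z = 0 := (b_nondeg hR.nondeg).1 z fun y => by
            rw [b_symm hR.nondeg]; exact hz y Submodule.mem_top
          rw [add_zero] at e'
          obtain ⟨s, rfl⟩ := Submodule.mem_span_singleton.1 ht
          exact hGind s e'.symm)
      exact ⟨y, by rw [hT, hy1, (mem_perp_span_singleton hR.nondeg).1 hy]; simp⟩
    have hTe : ∃ y, T y = G e := by
      obtain ⟨y, -, hy, hy1⟩ := exists_b_one_mem hR.nondeg (S := ⊤) (T := Submodule.span F {G e}) (v := G a)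
        (fun hm => by
          obtain ⟨t, ht, z, hz, e'⟩ := Submodule.mem_sup.1 hm
          obtain rfl : z = 0 := (b_nondeg hR.nondeg).1 z fun y => by
            rw [b_symm hR.nondeg]; exact hz y Submodule.mem_top
          rw [add_zero] at e'
          obtain ⟨s, rfl⟩ := Submodule.mem_span_singleton.1 ht
          have hs : s ≠ 0 := fun h => hGa0 (by rw [← e', h, zero_smul])
          exact hGind s⁻¹ (by rw [← e', smul_smul, inv_mul_cancel₀ hs, one_smul]))
      exact ⟨-y, by rw [hT, map_neg, map_neg, hy1, (mem_perp_span_singleton hR.nondeg).1 hy]; simp⟩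
    have hTspan : ∀ w : Submodule F (ι → F), (∀ y, QW F₀ P y → T y ∈ w) → ∀ y, T y ∈ w := fun w hw y => by
      have := LinearMap.congr_fun (qw_linear_ext (F₀ := F₀) (P := P) (f := w.mkQ.comp T) (g := 0)
        fun z hz => (Submodule.Quotient.mk_eq_zero w).2 (hw z hz)) y
      exact (Submodule.Quotient.mk_eq_zero w).1 this
    obtain ⟨y₁, hy₁, hy₁0⟩ : ∃ y, QW F₀ P y ∧ T y ≠ 0 := by
      by_contra hc'
      push Not at hc'
      obtain ⟨y, hy⟩ := hTa
      exact hGa0 (hy ▸ (Submodule.mem_bot F).1 (hTspan ⊥ (fun z hz => (Submodule.mem_bot F).2 (hc' z hz)) y))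
    obtain ⟨y₂, hy₂, hy₂N⟩ : ∃ y, QW F₀ P y ∧ ∀ t : F, t • T y₁ ≠ T y := by
      by_contra hc'
      push Not at hc'
      have hall : ∀ y, T y ∈ Submodule.span F {T y₁} := hTspan _ fun z hz => Submodule.mem_span_singleton.2 (hc' z hz)
      obtain ⟨ya, hya⟩ := hTa
      obtain ⟨ye, hye⟩ := hTe
      obtain ⟨s, hs⟩ := Submodule.mem_span_singleton.1 (hall ya)
      obtain ⟨t, ht⟩ := Submodule.mem_span_singleton.1 (hall ye)
      rw [hya] at hs
      rw [hye] at ht
      have hs0 : s ≠ 0 := fun h => hGa0 (by rw [← hs, h, zero_smul])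
      exact hGind (t * s⁻¹) (by rw [← ht, ← hs, smul_smul, mul_assoc, inv_mul_cancel₀ hs0, mul_one])
    refine ⟨T y₁, T y₂, hTW _ hy₁, hTW _ hy₂, hTm _, hTm _, ?_, hy₁0, hy₂N⟩
    obtain ⟨α, β, h₁⟩ := Submodule.mem_span_pair.1 (hTm y₁)
    obtain ⟨γ, δ, h₂⟩ := Submodule.mem_span_pair.1 (hTm y₂)
    have hdet : δ * α - β * γ ≠ 0 := fun h0 => by
      by_cases hβ : β = 0
      · have hα : α ≠ 0 := fun h => hy₁0 (by rw [← h₁, h, hβ]; simp)
        rw [hβ] at h0 h₁
        have hδ : δ = 0 := by simpa [hα] using h0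
        exact hy₂N (γ / α) (by rw [← h₁, ← h₂, hδ]; simp [smul_smul, div_mul_cancel₀ _ hα])
      · exact hy₂N (δ / β) (by
          rw [← h₁, ← h₂, smul_add, smul_smul, smul_smul, div_mul_cancel₀ _ hβ,
            show δ / β * α = γ by field_simp; linear_combination h0])
    refine Submodule.mem_span_pair.2 ⟨δ / (δ * α - β * γ), -β / (δ * α - β * γ), ?_⟩
    rw [← h₁, ← h₂]
    match_scalars <;> field_simp <;> ring
  obtain ⟨w, w', hw, hw', hwm, hwm', hGa, hw0, hwN⟩ := plane b hb hbQ (hab 0) (fun t h => hbN ⟨t, h⟩)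
  obtain ⟨z, z', hz, hz', hzm, hzm', hGa', hz0, hzN⟩ := plane b' hb' hb'Q (hab' 0)
    (fun t h => hb'N ⟨t, 0, by rw [zero_smul, add_zero, h]⟩)
  obtain ⟨γ, δ, hγ⟩ := Submodule.mem_span_pair.1 hGa'
  by_cases hγ0 : γ = 0
  · exact hgH (rational_of_qline hR hn hH hM hno hg ha hz' ha0 haQ (l := δ)
      (by show G a = _; rw [← hγ, hγ0, zero_smul, zero_add]))
  obtain ⟨α, β, hα⟩ := Submodule.mem_span_pair.1 hGa
  obtain ⟨z₁, rfl⟩ := exists_qemb hz
  obtain ⟨z₁', rfl⟩ := exists_qemb hz'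
  obtain ⟨w₁, rfl⟩ := exists_qemb hw
  obtain ⟨w₁', rfl⟩ := exists_qemb hw'
  have hd := qw_descent (P := P) (u := ![w₁, w₁', z₁']) (x := z₁) (by
    rw [Submodule.mem_span_range_iff_exists_fun]
    refine ⟨![α / γ, β / γ, -(δ / γ)], ?_⟩
    have hh := hα.trans hγ.symm
    simp only [Fin.sum_univ_three, Matrix.cons_val_zero, Matrix.cons_val_one, Matrix.cons_val]
    linear_combination (norm := (match_scalars <;> field_simp <;> ring)) γ⁻¹ • hh)
  rw [Submodule.mem_span_range_iff_exists_fun] at hd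
  obtain ⟨t, ht⟩ := hd
  simp only [Fin.sum_univ_three, Matrix.cons_val_zero, Matrix.cons_val_one, Matrix.cons_val] at ht
  set zz := qemb P (z₁ - t 2 • z₁') with hzz
  have hzz' : zz = qemb P z₁ - (t 2 : F) • qemb P z₁' := by
    rw [hzz, eq_sub_iff_add_eq, ← qemb_smul, ← qemb_add, sub_add_cancel]
  have hzz'' : zz = (t 0 : F) • qemb P w₁ + (t 1 : F) • qemb P w₁' := by
    rw [hzz, ← qemb_smul, ← qemb_smul, ← qemb_add, ← ht, add_sub_cancel_right]
  have hm1 : zz ∈ Submodule.span F {G a, G b'} := by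
    rw [hzz']; exact sub_mem hzm (Submodule.smul_mem _ _ hzm')
  have hm2 : zz ∈ Submodule.span F {G a, G b} := by
    rw [hzz'']; exact add_mem (Submodule.smul_mem _ _ hwm) (Submodule.smul_mem _ _ hwm')
  have hzz0 : zz ≠ 0 := fun h0 => by
    rw [hzz', sub_eq_zero] at h0
    by_cases ht2 : (t 2 : F) = 0
    · exact hz0 (by rw [h0, ht2, zero_smul])
    · exact hzN (t 2 : F)⁻¹ (by rw [h0, smul_smul, inv_mul_cancel₀ ht2, one_smul])
  obtain ⟨s₁, s₂, hs⟩ := Submodule.mem_span_pair.1 hm1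
  obtain ⟨r₁, r₂, hr'⟩ := Submodule.mem_span_pair.1 hm2
  have he : s₁ • a + s₂ • b' = r₁ • a + r₂ • b := hginj (by
    simp only [Matrix.mulVec_add, Matrix.mulVec_smul]; exact hs.trans hr'.symm)
  have hs₂ : s₂ = 0 := by
    by_contra h0
    refine hb'N ⟨s₂⁻¹ * (r₁ - s₁), s₂⁻¹ * r₂, ?_⟩
    have h5 : s₂ • b' = (r₁ - s₁) • a + r₂ • b := by linear_combination (norm := module) he
    rw [mul_smul, mul_smul, ← smul_add, ← h5, smul_smul, inv_mul_cancel₀ h0, one_smul]
  rw [hs₂, zero_smul, add_zero] at hs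
  have hs₁ : s₁ ≠ 0 := fun h => hzz0 (by rw [← hs, h, zero_smul])
  exact hgH (rational_of_qline hR hn hH hM hno hg ha (qw_qemb _) ha0 haQ (c' := zz) (l := s₁⁻¹)
    (by show G a = _; rw [← hs, smul_smul, inv_mul_cancel₀ hs₁, one_smul]))

end CfsgLib.OrthEight96
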