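import Cfsg.Agent.OrthEight96.RatPlane

/-! The orthogonal subfield groups are maximal. -/

set_option autoImplicit false
set_option linter.unusedSectionVars false

namespace CfsgLib.OrthEight96

open Cfsg.Geo Module CfsgLib.OrthGeo CfsgLib.Subfield54
open scoped Matrix MatrixGroups

variable {ι : Type} [Fintype ι] [DecidableEq ι] {F : Type*} [Field F] [Fintype F]
variable {F₀ : Subfield F} {Q : (ι → F) → F} {P : GL ι F}
variable (hR : QRat Q F₀ P) (hn : 8 ≤ Fintype.card ι)
variable {M : Subgroup (GL ι F)} (hH : SubO Q F₀ P ≤ M) (hM : M ≤ omegaGL Q)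

/-- All root elements at `c` with rational partner scaled by `l` are in `M`. -/
def FullAt (hR : QRat Q F₀ P) (M : Subgroup (GL ι F)) (l : F) (c : ι → F) : Prop :=
  ∀ y, QW F₀ P y → bform hR.nondeg c y = 0 → EIn Q M c (l • y)

include hR hn hH hM

lemma exists_scaled_root {c a : ι → F} (hc : QW F₀ P c) (hc0 : c ≠ 0) (hcQ : Q c = 0)
    (hca : bform hR.nondeg c a = 0) (h : EIn Q M c a) (hirr : ∀ w, QW F₀ P w → ∀ t : F, a ≠ w + t • c) :
    ∃ w l, QW F₀ P w ∧ Q w = 0 ∧ bform hR.nondeg c w = 0 ∧ w ∉ Submodule.span F {c} ∧ l ∉ F₀ ∧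
      EIn Q M c (l • w) := by
  have hcc : bform hR.nondeg c c = 0 := by rw [b_self hR.nondeg, hcQ, mul_zero]
  obtain ⟨d, hd, hdQ, hcd, hda⟩ : ∃ d, QW F₀ P d ∧ Q d = 0 ∧ bform hR.nondeg c d = 0 ∧
      bform hR.nondeg d a ∉ F₀ := by
    by_contra hno'
    push Not at hno'
    obtain ⟨yc, hyc, -, hcyc⟩ := exists_qw_pair_one hR (![] : Fin 0 → ι → F) (c := c) (by simp) hc (by simp [hc0])
    refine hirr _ (qw_of_b_mem hR (v := a - bform hR.nondeg a yc • c) fun y hy => ?_) (bform hR.nondeg a yc)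
      (sub_add_cancel _ _).symm
    have hm : bform hR.nondeg a (y - bform hR.nondeg c y • yc) ∈ F₀ :=
      qw_singular_induction hR ![c] (by simp [hc]) (by omega) (fun z => bform hR.nondeg a z ∈ F₀)
        (fun x y _ _ h h' => by rw [map_add]; exact F₀.add_mem h h')
        (fun s hs hsQ hsp => by rw [b_symm hR.nondeg]; exact hno' s hs hsQ (hsp 0))
        (hy.sub (hyc.smul (qw_b_mem hR hc hy))) (by simp [map_sub, map_smul, hcyc, -bform_apply])
    rw [map_sub, map_smul, smul_eq_mul] at hm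
    rw [map_sub, LinearMap.sub_apply, map_smul, LinearMap.smul_apply, smul_eq_mul]
    convert hm using 1
    ring
  obtain ⟨w, hw, hwQ, hw0, hwp, hwN⟩ := exists_qw_singular hR ![c, d] ![c, d]
    (by simp [Fin.forall_fin_two, hc, hd]) (by simp [Fin.forall_fin_two, hc, hd]) (by omega)
  have hcw : bform hR.nondeg c w = 0 := hwp 0
  have hdw : bform hR.nondeg d w = 0 := hwp 1
  obtain ⟨g, hg, eg⟩ := eIn_rational hR hn hH hM hd hw hdQ hdw
  have hgI := isometry_of_mem hR hM hg
  have hgfix : (g : Matrix ι ι F) *ᵥ c = c := by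
    rw [eg, eichlerMat_mulVec hR.nondeg, b_symm hR.nondeg w c, hcw, b_symm hR.nondeg d c, hcd]; simp
  have hz := h.displacement hR.nondeg hcQ hca hg hgI hgfix
  rw [eg, eichlerMat_mulVec hR.nondeg, hwQ] at hz
  obtain ⟨e, he, heQ, hep, hwe⟩ := exists_qw_partner hR ![c, d] (c := w)
    (by simp [Fin.forall_fin_two, hc, hd]) hw hwN hwQ hwp
  have hce : bform hR.nondeg c e = 0 := hep 0
  have hde : bform hR.nondeg d e = 0 := hep 1
  obtain ⟨w', hw', hw'Q, hw'0, hw'p, hw'N⟩ := exists_qw_singular hR ![c, d, w, e] ![c]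
    (by simp [Fin.forall_fin_succ, hc, hd, hw, he]) (by simp [hc]) (by omega)
  have hcw' : bform hR.nondeg c w' = 0 := hw'p 0
  obtain ⟨g', hg', eg'⟩ := eIn_rational hR hn hH hM he hw' heQ (hw'p 3)
  have hgI' := isometry_of_mem hR hM hg'
  have hgfix' : (g' : Matrix ι ι F) *ᵥ c = c := by
    rw [eg', eichlerMat_mulVec hR.nondeg, b_symm hR.nondeg w' c, hcw', b_symm hR.nondeg e c, hce]; simp
  have hz' := hz.displacement hR.nondeg hcQ (by
    simp [map_add, map_sub, map_smul, hcd, hcw, -bform_apply]) hg' hgI' hgfix'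
  rw [eg', eichlerMat_mulVec hR.nondeg, hw'Q] at hz'
  refine ⟨w', bform hR.nondeg d a, hw', hw'Q, hcw', ?_, hda, ?_⟩
  · simpa only [Matrix.range_cons, Matrix.range_empty, Set.union_empty] using hw'N
  · convert hz' using 1
    simp only [map_add, map_sub, map_smul, smul_eq_mul, zero_mul, zero_smul, sub_zero,
      b_symm hR.nondeg e d, hde, b_symm hR.nondeg e w, hwe, b_symm hR.nondeg w' d,
      show bform hR.nondeg d w' = 0 from hw'p 1, b_symm hR.nondeg w' w, show bform hR.nondeg w w' = 0 from hw'p 2]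
    module

lemma move_partner {c w z : ι → F} {l : F} (hc : QW F₀ P c) (hw : QW F₀ P w) (hz : QW F₀ P z) (hcQ : Q c = 0)
    (hwQ : Q w = 0) (hzQ : Q z = 0) (hcw : bform hR.nondeg c w = 0) (hcz : bform hR.nondeg c z = 0) (hzw : bform hR.nondeg z w = 0)
    (hind : w ∉ Submodule.span F (Set.range ![c, z])) (h : EIn Q M c (l • w)) : EIn Q M c (l • z) := by
  obtain ⟨e, he, heQ, hep, hwe⟩ := exists_qw_partner hR ![c, z] (c := w)
    (by simp [Fin.forall_fin_two, hc, hz]) hw hind hwQ (by simp [Fin.forall_fin_two, hcw, hzw, -bform_apply])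
  have hce : bform hR.nondeg c e = 0 := hep 0
  obtain ⟨g, hg, eg⟩ := eIn_rational hR hn hH hM he hz heQ
    (by rw [b_symm hR.nondeg]; exact hep 1)
  have hgI := isometry_of_mem hR hM hg
  have hgfix : (g : Matrix ι ι F) *ᵥ c = c := by
    rw [eg, eichlerMat_mulVec hR.nondeg, b_symm hR.nondeg z c, hcz, b_symm hR.nondeg e c, hce]; simp
  have h1 := h.displacement hR.nondeg hcQ (by rw [map_smul, hcw, smul_zero]) hg hgI hgfix
  rw [eg, eichlerMat_mulVec hR.nondeg, hzQ] at h1
  have h2 : EIn Q M c (-(l • z)) := by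
    convert h1 using 1
    simp only [map_smul, hzw, b_symm hR.nondeg e w, hwe, smul_eq_mul, zero_mul, zero_smul, sub_zero, mul_one,
      mul_zero]
    module
  simpa using h2.neg hR.nondeg hcQ (by rw [map_neg, map_smul, hcz, smul_zero, neg_zero])

lemma fullAt_of_one {c w : ι → F} {l : F} (hc : QW F₀ P c) (hw : QW F₀ P w) (hcQ : Q c = 0) (hwQ : Q w = 0)
    (hcw : bform hR.nondeg c w = 0) (hind : w ∉ Submodule.span F {c}) (h : EIn Q M c (l • w)) :
    FullAt hR M l c := by
  intro y hy hcy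
  refine qw_singular_induction hR ![c] (by simp [hc]) (by omega) (fun z => bform hR.nondeg c z = 0 ∧ EIn Q M c (l • z))
    (fun u v _ _ hu hv => ⟨by rw [map_add, hu.1, hv.1, add_zero], by
      rw [smul_add]
      exact hu.2.add hR.nondeg hv.2 hcQ (by rw [map_smul, hu.1, smul_zero]) (by rw [map_smul, hv.1, smul_zero])⟩)
    (fun z hz hzQ hzp => ⟨hzp 0, ?_⟩) hy (by simp [hcy, -bform_apply]) |>.2
  have hcz : bform hR.nondeg c z = 0 := hzp 0
  -- two steps through a vector orthogonal to two non-orthogonal ones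
  have two : ∀ {p q : ι → F}, QW F₀ P p → QW F₀ P q → Q p = 0 → Q q = 0 → bform hR.nondeg c p = 0 →
      bform hR.nondeg c q = 0 → bform hR.nondeg p q ≠ 0 → EIn Q M c (l • p) → EIn Q M c (l • q) := by
    intro p q hp hq hpQ hqQ hcp hcq hpq hlp
    obtain ⟨o, ho, hoQ, -, hop, hoN⟩ := exists_qw_singular hR ![c, p, q] ![c]
      (by simp [Fin.forall_fin_succ, hc, hp, hq]) (by simp [hc]) (by omega)
    have hpo : bform hR.nondeg p o = 0 := hop 1
    have hqo : bform hR.nondeg q o = 0 := hop 2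
    have hqc : bform hR.nondeg q c = 0 := by rw [b_symm hR.nondeg, hcq]
    refine move_partner hR hn hH hM hc ho hq hcQ hoQ hqQ (hop 0) hcq hqo ?_
      (move_partner hR hn hH hM hc hp ho hcQ hpQ hoQ hcp (hop 0) (by rw [b_symm hR.nondeg]; exact hpo) ?_ hlp)
    · rw [span_pair_range, Submodule.mem_span_pair]
      rintro ⟨s, t, e⟩
      have h1 := congrArg (bform hR.nondeg p) e
      rw [map_add, map_smul, map_smul, b_symm hR.nondeg p c, hcp, hpo, smul_zero, zero_add, smul_eq_mul,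
        mul_eq_zero] at h1
      rw [h1.resolve_right hpq, zero_smul, add_zero] at e
      exact hoN (Submodule.mem_span_range_iff_exists_fun F |>.2 ⟨![s], by simp [e]⟩)
    · rw [span_pair_range, Submodule.mem_span_pair]
      rintro ⟨s, t, e⟩
      have h1 := congrArg (bform hR.nondeg q) e
      rw [map_add, map_smul, map_smul, hqc, hqo, smul_zero, smul_zero, add_zero, b_symm hR.nondeg q p] at h1
      exact hpq h1.symm
  by_cases hwz : bform hR.nondeg w z = 0
  swap
  · exact two hw hz hwQ hzQ hcw hcz hwz h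
  by_cases hm : w ∈ Submodule.span F (Set.range ![c, z])
  swap
  · exact move_partner hR hn hH hM hc hw hz hcQ hwQ hzQ hcw hcz (by rw [b_symm hR.nondeg, hwz]) hm h
  rw [span_pair_range, Submodule.mem_span_pair] at hm
  obtain ⟨α, β, e⟩ := hm
  obtain ⟨o, ho, hoQ, hop, hwo⟩ := exists_qw_partner hR ![c] (c := w) (by simp [hc]) hw
    (by simpa only [Matrix.range_cons, Matrix.range_empty, Set.union_empty] using hind) hwQ
    (by simp [hcw, -bform_apply])
  have hco : bform hR.nondeg c o = 0 := hop 0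
  refine two ho hz hoQ hzQ hco hcz (fun h0 => ?_) (two hw ho hwQ hoQ hcw hco (by rw [hwo]; exact one_ne_zero) h)
  rw [← e, map_add, map_smul, map_smul, LinearMap.add_apply, LinearMap.smul_apply, LinearMap.smul_apply, hco,
    b_symm hR.nondeg z o, h0, smul_zero, smul_zero, add_zero] at hwo
  exact zero_ne_one hwo

lemma fullAt_step {c c' : ι → F} {l : F} (hc : QW F₀ P c) (hc' : QW F₀ P c') (hc0 : c ≠ 0) (hcQ : Q c = 0)
    (hc'Q : Q c' = 0) (hcc' : bform hR.nondeg c c' = 0) (hind : c ∉ Submodule.span F {c'}) (h : FullAt hR M l c) :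
    FullAt hR M l c' := by
  obtain ⟨g, hg, eg⟩ := h c' hc' hcc'
  have h1 : EIn Q M c' (-(l • c)) := ⟨g, hg, by
    rw [eg, ← eichlerMat_smul_left hR.nondeg, eichlerMat_swap hR.nondeg (by rw [q_smul hR.nondeg, hcQ, mul_zero]) hc'Q]⟩
  have h2 := h1.neg hR.nondeg hc'Q (by rw [map_neg, map_smul, b_symm hR.nondeg c' c, hcc', smul_zero, neg_zero])
  rw [neg_neg] at h2
  exact fullAt_of_one hR hn hH hM hc' hc hc'Q hcQ (by rw [b_symm hR.nondeg, hcc']) hind h2

lemma fullAt_all {c c' : ι → F} {l : F} (hc : QW F₀ P c) (hc' : QW F₀ P c') (hc0 : c ≠ 0) (hc'0 : c' ≠ 0)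
    (hcQ : Q c = 0) (hc'Q : Q c' = 0) (h : FullAt hR M l c) : FullAt hR M l c' := by
  obtain ⟨f, hf, hfQ, hf0, hfp, hfN⟩ := exists_qw_singular hR ![c, c'] ![c, c']
    (by simp [Fin.forall_fin_two, hc, hc']) (by simp [Fin.forall_fin_two, hc, hc']) (by omega)
  rw [span_pair_range, Submodule.mem_span_pair] at hfN
  have h1 := fullAt_step hR hn hH hM hc hf hc0 hcQ hfQ (hfp 0) (fun hm => by
    obtain ⟨t, ht⟩ := Submodule.mem_span_singleton.1 hm
    refine hfN ⟨t⁻¹, 0, ?_⟩
    rw [← ht, smul_smul, inv_mul_cancel₀ (fun h0 => hc0 (by rw [← ht, h0, zero_smul])), one_smul, zero_smul, add_zero]) h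
  exact fullAt_step hR hn hH hM hf hc' hf0 hfQ hc'Q (by rw [b_symm hR.nondeg]; exact hfp 1) (fun hm => by
    obtain ⟨t, ht⟩ := Submodule.mem_span_singleton.1 hm
    exact hfN ⟨0, t, by rw [zero_smul, zero_add, ht]⟩) h1

variable {r : ℕ} (hr : r.Prime) (hcard : Fintype.card F = Nat.card F₀ ^ r)
include hr hcard

lemma omega_le_of_irr (hirr : ¬ NoIrr hR M) : omegaGL Q ≤ M := by
  simp only [NoIrr, not_forall] at hirr
  obtain ⟨c, a, hc, hc0, hcQ, hca, h, hirr⟩ := hirr
  push Not at hirr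
  obtain ⟨w, l, hw, hwQ, hcw, hwN, hl, hlw⟩ := exists_scaled_root hR hn hH hM hc hc0 hcQ hca h
    (fun w hw t e => hirr w hw t e)
  set S : Set F := {x | ∀ c y, QW F₀ P c → QW F₀ P y → c ≠ 0 → Q c = 0 → bform hR.nondeg c y = 0 →
    EIn Q M c (x • y)} with hS
  have hlS : l ∈ S := fun c' y hc' hy hc'0 hc'Q hc'y =>
    fullAt_all hR hn hH hM hc hc' hc0 hc'0 hcQ hc'Q (fullAt_of_one hR hn hH hM hc hw hcQ hwQ hcw hwN hlw) y hy hc'y
  have hS0 : ∀ x ∈ F₀, x ∈ S := fun x hx c y hc hy _ hcQ hcy =>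
    eIn_rational hR hn hH hM hc (hy.smul hx) hcQ (by rw [map_smul, hcy, smul_zero])
  have hSadd : ∀ x ∈ S, ∀ y ∈ S, x + y ∈ S := fun x hx y hy c z hc hz hc0 hcQ hcz => by
    rw [add_smul]
    exact (hx c z hc hz hc0 hcQ hcz).add hR.nondeg (hy c z hc hz hc0 hcQ hcz) hcQ
      (by rw [map_smul, hcz, smul_zero]) (by rw [map_smul, hcz, smul_zero])
  have hSmul : ∀ x ∈ S, ∀ y ∈ S, x * y ∈ S := by
    intro x hx y hy c z hc hz hc0 hcQ hcz
    refine (qw_singular_induction hR ![c] (by simp [hc]) (by omega)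
      (fun z => bform hR.nondeg c z = 0 ∧ EIn Q M c ((x * y) • z))
      (fun u v _ _ hu hv => ⟨by rw [map_add, hu.1, hv.1, add_zero], by
        rw [smul_add]
        exact hu.2.add hR.nondeg hv.2 hcQ (by rw [map_smul, hu.1, smul_zero]) (by rw [map_smul, hv.1, smul_zero])⟩)
      (fun z hz hzQ hzp => ⟨hzp 0, ?_⟩) hz (by simp [hcz, -bform_apply])).2
    have hcz : bform hR.nondeg c z = 0 := hzp 0
    by_cases hzc : z ∈ Submodule.span F {c}
    · obtain ⟨t, rfl⟩ := Submodule.mem_span_singleton.1 hzc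
      refine ⟨1, M.one_mem, ?_⟩
      rw [smul_smul, ← zero_add ((x * y * t) • c), eichlerMat_add_smul hR.nondeg hcQ (map_zero _), eichlerMat_zero hR.nondeg,
        Units.val_one]
    obtain ⟨w, hw, hwQ, hw0, hwp, hwN⟩ := exists_qw_singular hR ![c, z] ![c, z]
      (by simp [Fin.forall_fin_two, hc, hz]) (by simp [Fin.forall_fin_two, hc, hz]) (by omega)
    obtain ⟨e, he, heQ, hep, hwe⟩ := exists_qw_partner hR ![c, z] (c := w)
      (by simp [Fin.forall_fin_two, hc, hz]) hw hwN hwQ hwp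
    have hce : bform hR.nondeg c e = 0 := hep 0
    have hez : bform hR.nondeg e z = 0 := by rw [b_symm hR.nondeg]; exact hep 1
    have he0 : e ≠ 0 := fun h0 => by rw [h0, map_zero] at hwe; exact zero_ne_one hwe
    obtain ⟨g, hg, eg⟩ := hy e z he hz he0 heQ hez
    have hgI := isometry_of_mem hR hM hg
    have hgfix : (g : Matrix ι ι F) *ᵥ c = c := by
      rw [eg, eichlerMat_mulVec hR.nondeg, map_smul, LinearMap.smul_apply, b_symm hR.nondeg z c, hcz,
        b_symm hR.nondeg e c, hce]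
      simp
    have hcw : bform hR.nondeg c w = 0 := hwp 0
    have h1 := (hx c w hc hw hc0 hcQ hcw).displacement hR.nondeg hcQ (by rw [map_smul, hcw, smul_zero]) hg hgI hgfix
    rw [eg, eichlerMat_mulVec hR.nondeg, q_smul hR.nondeg, hzQ] at h1
    have h2 : EIn Q M c (-((x * y) • z)) := by
      convert h1 using 1
      simp only [map_smul, LinearMap.smul_apply, show bform hR.nondeg z w = 0 from hwp 1, b_symm hR.nondeg e w,
        hwe, smul_eq_mul, mul_zero, zero_mul, zero_smul, sub_zero, mul_one]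
      module
    simpa using h2.neg hR.nondeg hcQ (by rw [map_neg, map_smul, hcz, smul_zero, neg_zero])
  have hall := eq_univ_of_mul_closed hr hcard S hS0 hSadd hSmul hlS hl
  refine omega_le_of_root_vectors hR.nondeg (by omega) (fun g hg => isometry_of_mem hR hM hg)
    {z | QW F₀ P z ∧ Q z = 0 ∧ z ≠ 0} ?_ ?_
  · rintro z ⟨hz, hzQ, hz0⟩
    refine ⟨hzQ, fun x hzx => ?_⟩
    obtain ⟨y, hy, -, hzy⟩ := exists_qw_pair_one hR (![] : Fin 0 → ι → F) (c := z) (by simp) hz (by simp [hz0])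
    let π : (ι → F) →ₗ[F] (ι → F) := LinearMap.id - (bform hR.nondeg z).smulRight y
    have hπ : ∀ v, π v = v - bform hR.nondeg z v • y := fun v => rfl
    have hx' : π x = x := by rw [hπ, hzx, zero_smul, sub_zero]
    rw [← hx', ← mulVec_inv_cancel P x, ← Finset.univ_sum_single (((P⁻¹ : GL ι F) : Matrix ι ι F) *ᵥ x),
      Matrix.mulVec_sum, map_sum]
    refine (Finset.sum_induction _ (fun v => bform hR.nondeg z v = 0 ∧ EIn Q M z v)
      (fun u v hu hv => ⟨by rw [map_add, hu.1, hv.1, add_zero], hu.2.add hR.nondeg hv.2 hzQ hu.1 hv.1⟩)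
      ⟨map_zero _, ⟨1, M.one_mem, by rw [eichlerMat_zero hR.nondeg, Units.val_one]⟩⟩ fun i _ => ?_).2
    set t := (((P⁻¹ : GL ι F) : Matrix ι ι F) *ᵥ x) i
    have hs : (Pi.single i t : ι → F) = t • (Pi.single i (1 : F) : ι → F) :=
      funext fun j => by simp [Pi.single_apply]
    rw [hs, Matrix.mulVec_smul, map_smul]
    have hcol : QW F₀ P ((P : Matrix ι ι F) *ᵥ Pi.single i 1) := qw_col (rat_single i)
    have hzp : bform hR.nondeg z (π ((P : Matrix ι ι F) *ᵥ Pi.single i 1)) = 0 := by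
      rw [hπ, map_sub, map_smul, hzy, smul_eq_mul, mul_one, sub_self]
    refine ⟨by rw [map_smul, hzp, smul_zero], hall t z _ hz ?_ hz0 hzQ hzp⟩
    rw [hπ]
    exact hcol.sub (hy.smul (qw_b_mem hR hz hcol))
  · intro u _ hu0
    obtain ⟨z, hz, hzQ, hzu⟩ : ∃ z, QW F₀ P z ∧ Q z = 0 ∧ bform hR.nondeg z u ≠ 0 := by
      by_contra hno'
      push Not at hno'
      refine hu0 (qw_perp_eq_zero hR fun y hy => ?_)
      exact qw_singular_induction hR (![] : Fin 0 → ι → F) (by simp) (by omega) (fun y => bform hR.nondeg u y = 0)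
        (fun a b _ _ h h' => by rw [map_add, h, h', add_zero])
        (fun s hs hsQ _ => by rw [b_symm hR.nondeg]; exact hno' s hs hsQ) hy (by simp)
    have hz0 : z ≠ 0 := fun h0 => hzu (by rw [h0, map_zero, LinearMap.zero_apply])
    obtain ⟨v, hv, hvQ, -, hzv⟩ := exists_qw_singular_pair_one hR (![] : Fin 0 → ι → F) (c := z) (by simp) hz
      (by simp [hz0]) (by omega)
    exact ⟨z, ⟨hz, hzQ, hz0⟩, v, ⟨hv, hvQ, fun h0 => by rw [h0, map_zero] at hzv; exact zero_ne_one hzv⟩,
      by rw [hzv]; exact one_ne_zero, hzu⟩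

omit hH hM in
/-- The orthogonal subfield group is maximal in the omega group. -/
theorem qSubfield_isMaximal : Cfsg.Geo.IsMaximalIn (omegaGL Q) (SubO Q F₀ P) := by
  refine ⟨lt_of_le_of_ne inf_le_right fun heq => ?_, fun M hle hM => ?_⟩
  · obtain ⟨l, hl⟩ : ∃ l, l ∉ F₀ := by
      by_contra hc
      push Not at hc
      have h1 : Nat.card F₀ = Fintype.card F := by
        rw [← Nat.card_eq_fintype_card]; exact Nat.card_congr (Equiv.subtypeUnivEquiv hc)
      rw [hcard] at h1
      have h2 : 1 < Nat.card F₀ := Finite.one_lt_card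
      have := Nat.pow_right_injective h2 ((pow_one _).trans h1)
      exact hr.one_lt.ne this
    obtain ⟨c, hc, hcQ, hc0, -, -⟩ := exists_qw_singular hR (![] : Fin 0 → ι → F) (![] : Fin 0 → ι → F)
      (by simp) (by simp) (by omega)
    obtain ⟨w, hw, hwQ, hw0, hwp, hwN⟩ := exists_qw_singular hR ![c] ![c] (by simp [hc]) (by simp [hc]) (by omega)
    have hcw : bform hR.nondeg c w = 0 := hwp 0
    obtain ⟨y, hy, hyp, hcy⟩ := exists_qw_pair_one hR ![w] (c := c) (by simp [hw]) hc (fun hm => hwN (by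
      simp only [Matrix.range_cons, Matrix.range_empty, Set.union_empty, Submodule.mem_span_singleton] at hm ⊢
      obtain ⟨t, ht⟩ := hm
      exact ⟨t⁻¹, by rw [← ht, smul_smul, inv_mul_cancel₀ (fun h0 => hc0 (by rw [← ht, h0, zero_smul])), one_smul]⟩))
    have hcl : bform hR.nondeg c (l • w) = 0 := by rw [map_smul, hcw, smul_zero]
    have hg : eichler hR.nondeg hcQ hcl ∈ SubO Q F₀ P := by
      rw [heq]; exact eichler_mem_omega hR.nondeg (by omega) hcQ hcl
    have hfix : (eichler hR.nondeg hcQ hcl : Matrix ι ι F) *ᵥ c = c := eichler_fix_left hR.nondeg hcQ hcl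
    have hp := preserves_of_qfix hg.1 hc hc0 hfix y hy
    rw [eichler_mulVec hR.nondeg, q_smul hR.nondeg, hwQ, hcy, map_smul, LinearMap.smul_apply,
      show bform hR.nondeg w y = 0 from hyp 0, smul_zero, zero_smul, add_zero, one_smul, mul_zero, zero_mul,
      zero_smul, sub_zero] at hp
    have h1 := hy.sub hp
    rw [sub_sub_cancel] at h1
    exact hl (qw_scalar_mem h1 hw rfl hw0)
  by_cases hno : NoIrr hR M
  · exact Or.inl (le_antisymm (le_subO_of_noIrr hR hn hle hM hno hr hcard) hle)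
  · exact Or.inr (le_antisymm hM (omega_le_of_irr hR hn hle hM hr hcard hno))

end CfsgLib.OrthEight96
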