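import Cfsg.Agent.OrthEight96.Lines

/-! Maximality in Omega of the stabiliser of a non-degenerate subspace whose perp has singular lines. -/

set_option autoImplicit false
set_option linter.unusedSectionVars false

namespace CfsgLib.OrthEight96

open Cfsg.Geo Module CfsgLib.OrthGeo
open scoped Matrix MatrixGroups commutatorElement

variable {ι : Type} [Fintype ι] [DecidableEq ι] {F : Type*} [Field F] [Finite F]
variable {Q : (ι → F) → F} (hQ : IsNondegenerateQuadraticForm Q) {W : Submodule F (ι → F)}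
variable {M : Subgroup (GL ι F)}
include hQ
variable (hMI : M ≤ Cfsg.isometryGroup F Q)
  (hin : ∀ u ∈ perp hQ W, Q u = 0 → ∀ w ∈ perp hQ W, bform hQ u w = 0 → EIn Q M u w)
include hMI hin

/-- One mixed root element gives all of its scalar multiples at all singular points of the perp. -/
lemma mixed_all (hW : ∀ x ∈ W, x ∈ perp hQ W → x = 0) (hlines : HasLines hQ (perp hQ W)) {s y : ι → F}
    (hs : s ∈ perp hQ W) (hy : y ∈ W) (hsQ : Q s = 0) (hs0 : s ≠ 0) (h : EIn Q M s y) :
    ∀ v ∈ perp hQ W, Q v = 0 → ∀ t : F, EIn Q M v (t • y) := by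
  intro v hv hvQ t
  by_cases hv0 : v = 0
  · exact ⟨1, M.one_mem, by rw [hv0, eichlerMat_zero_left hQ]; rfl⟩
  have hind : ∀ {p r : ι → F}, p ≠ 0 → r ∉ Submodule.span F {p} → r ≠ 0 → p ∉ Submodule.span F {r} := by
    intro p r hp hr hr0 hm
    obtain ⟨c, hc⟩ := Submodule.mem_span_singleton.1 hm
    refine hr (Submodule.mem_span_singleton.2 ⟨c⁻¹, ?_⟩)
    rw [← hc, smul_smul, inv_mul_cancel₀ (fun h0 => hp (by rw [← hc, h0, zero_smul])), one_smul]
  by_cases hsv : bform hQ s v = 0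
  · by_cases hdep : v ∈ Submodule.span F {s}
    · obtain ⟨f, hf, hfQ, hsf, hfN⟩ := hlines s hs hsQ hs0
      have hf0 : f ≠ 0 := fun h0 => hfN (h0 ▸ zero_mem _)
      have h1 := mixed_move hQ hMI hin hW hs hf hy hsQ hfQ hsf (hind hs0 hfN hf0) h 1
      rw [one_smul] at h1
      obtain ⟨c, rfl⟩ := Submodule.mem_span_singleton.1 hdep
      exact mixed_move hQ hMI hin hW hf hv hy hfQ hvQ
        (by rw [map_smul, b_symm hQ, hsf, smul_zero])
        (fun hm => hfN (Submodule.span_singleton_le_iff_mem _ _ |>.2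
          (Submodule.smul_mem _ c (Submodule.mem_span_singleton_self s)) hm)) h1 t
    · exact mixed_move hQ hMI hin hW hs hv hy hsQ hvQ hsv (hind hs0 hdep hv0) h t
  obtain ⟨f, hf, hfQ, hsf, hvf, hfs, hfv⟩ := exists_common hQ hlines hs hsQ hs0 hsv
  have hf0 : f ≠ 0 := fun h0 => hfs (h0 ▸ zero_mem _)
  have h1 := mixed_move hQ hMI hin hW hs hf hy hsQ hfQ hsf (hind hs0 hfs hf0) h 1
  rw [one_smul] at h1
  exact mixed_move hQ hMI hin hW hf hv hy hfQ hvQ (by rw [b_symm hQ]; exact hvf) hfv h1 t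

variable (hPM : subspaceStabilizer W ⊓ omegaGL Q ≤ M)
include hPM

/-- The mixed root elements fill the whole subspace. -/
lemma mixed_fill (hW : ∀ x ∈ W, x ∈ perp hQ W → x = 0) (hn : 5 ≤ Fintype.card ι)
    (hlines : HasLines hQ (perp hQ W)) (hex : finrank F W = 2 → (∀ x ∈ W, Q x = 0 → x = 0) ∨ 4 ≤ Nat.card F)
    {s y : ι → F} (hs : s ∈ perp hQ W) (hy : y ∈ W) (hy0 : y ≠ 0) (hsQ : Q s = 0) (hs0 : s ≠ 0)
    (h : EIn Q M s y) : ∀ v ∈ perp hQ W, Q v = 0 → ∀ z ∈ W, EIn Q M v z := by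
  classical
  have hW' : ∀ x ∈ perp hQ W, x ∈ perp hQ (perp hQ W) → x = 0 := fun x hx hx' =>
    hW x (by rwa [perp_perp hQ] at hx') hx
  have hzero : ∀ z ∈ perp hQ W, ∀ w ∈ W, bform hQ z w = 0 := fun z hz w hw => by rw [b_symm hQ]; exact hz w hw
  let A : Submodule F (ι → F) :=
    { carrier := {z | z ∈ W ∧ ∀ v ∈ perp hQ W, Q v = 0 → EIn Q M v z}
      zero_mem' := ⟨W.zero_mem, fun v _ _ => ⟨1, M.one_mem, by rw [eichlerMat_zero hQ]; rfl⟩⟩
      add_mem' := fun {a b} ha hb => ⟨W.add_mem ha.1 hb.1, fun v hv hvQ =>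
        (ha.2 v hv hvQ).add hQ (hb.2 v hv hvQ) hvQ (hzero v hv a ha.1) (hzero v hv b hb.1)⟩
      smul_mem' := fun c a ha => ⟨W.smul_mem c ha.1, fun v hv hvQ => by
        obtain ⟨g, hg, e⟩ := ha.2 (c • v) (Submodule.smul_mem _ _ hv) (by rw [q_smul hQ, hvQ, mul_zero])
        exact ⟨g, hg, by rw [e, eichlerMat_smul_left hQ]⟩⟩ }
  have hyA : y ∈ A := ⟨hy, fun v hv hvQ => by simpa using mixed_all hQ hMI hin hW hlines hs hy hsQ hs0 h v hv hvQ 1⟩
  suffices hWA : W ≤ A from fun v hv hvQ z hz => (hWA hz).2 v hv hvQ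
  have hdisp : ∀ {a b z : ι → F}, z ∈ A → ∀ (ha : Q a = 0) (hab : bform hQ a b = 0), a ∈ W → b ∈ W →
      (eichler hQ ha hab : Matrix ι ι F) *ᵥ z - z ∈ A := by
    intro a b z hz ha hab haW hbW
    have hmem : ∀ x ∈ W, (eichler hQ ha hab : Matrix ι ι F) *ᵥ x ∈ W := fun x hx => by
      rw [eichler_mulVec hQ]
      exact W.sub_mem (W.sub_mem (W.add_mem hx (W.smul_mem _ haW)) (W.smul_mem _ hbW)) (W.smul_mem _ haW)
    have hgM : eichler hQ ha hab ∈ M := hPM ⟨mem_subspaceStabilizer_of_le hmem, eichler_mem_omega hQ hn ha hab⟩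
    refine ⟨W.sub_mem (hmem z hz.1) hz.1, fun v hv hvQ => ?_⟩
    exact (hz.2 v hv hvQ).displacement hQ hvQ (hzero v hv z hz.1) hgM (hMI hgM)
      (eichler_fix hQ ha hab (hv a haW) (hv b hbW))
  have hrefl : ∀ {a z : ι → F}, z ∈ A → a ∈ W → Q a ≠ 0 → bform hQ a z ≠ 0 → a ∈ A := by
    intro a z hz haW ha haz
    have hm : ((Q a)⁻¹ * bform hQ a z) • a ∈ A := by
      refine ⟨W.smul_mem _ haW, fun v hv hvQ => ?_⟩
      by_cases hv0 : v = 0
      · exact ⟨1, M.one_mem, by rw [hv0, eichlerMat_zero_left hQ]; rfl⟩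
      obtain ⟨e, he, heQ, hve, heN⟩ := hlines v hv hvQ hv0
      obtain ⟨f, hf, hfQ, hvf, hef⟩ := exists_singular_partner_mem hQ hW' he hv heQ
        (by rw [b_symm hQ]; exact hve) heN
      set b := Q a • e + f with hbdef
      have hbQ : Q a = Q b := by
        rw [hbdef, q_add hQ, q_smul hQ, heQ, hfQ, map_smul, LinearMap.smul_apply, hef, smul_eq_mul]; ring
      have hb : Q b ≠ 0 := hbQ ▸ ha
      have hbW : b ∈ perp hQ W := Submodule.add_mem _ (Submodule.smul_mem _ _ he) hf
      have hact : ∀ x, bform hQ b x = 0 → ((reflection hQ ha * reflection hQ hb : GL ι F) : Matrix ι ι F) *ᵥ x =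
          x - ((Q a)⁻¹ * bform hQ a x) • a := fun x hx => by
        rw [Units.val_mul, ← Matrix.mulVec_mulVec, reflection_mulVec hQ hb, hx, mul_zero, zero_smul, sub_zero,
          reflection_mulVec hQ ha]
      have hgM : reflection hQ ha * reflection hQ hb ∈ M :=
        hPM ⟨mem_subspaceStabilizer_of_le fun x hx => by
          rw [hact x (hzero b hbW x hx)]; exact W.sub_mem hx (W.smul_mem _ haW),
          reflection_pair_mem_omega_of_eq hQ hn ha hb hbQ⟩
      have hbv : bform hQ b v = 0 := by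
        rw [hbdef, map_add, map_smul, LinearMap.add_apply, LinearMap.smul_apply, b_symm hQ e v, hve,
          b_symm hQ f v, hvf]
        simp
      have h1 := (hz.2 v hv hvQ).displacement hQ hvQ (hzero v hv z hz.1) hgM (hMI hgM) (by
        rw [hact v hbv, hv a haW, mul_zero, zero_smul, sub_zero])
      rw [hact z (hzero b hbW z hz.1), sub_sub_cancel_left] at h1
      simpa using h1.neg hQ hvQ (by rw [map_neg, map_smul, hzero v hv a haW, smul_zero, neg_zero])
    exact (A.smul_mem_iff (mul_ne_zero (inv_ne_zero ha) haz)).1 hm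
  have hTn : ∀ x ∈ W, x ≠ 0 → ∃ z ∈ W, bform hQ x z ≠ 0 := fun x hx hx0 => by
    obtain ⟨z, hz, hzx⟩ := exists_mem_b_ne_zero hQ (fun h => hx0 (hW x hx h))
    exact ⟨z, hz, by rw [b_symm hQ]; exact hzx⟩
  rcases Nat.lt_or_ge (finrank F W) 3 with hk | hk
  swap
  · -- singular vectors
    have hstep : ∀ z ∈ A, ∀ a ∈ W, Q a = 0 → bform hQ a z ≠ 0 → a ∈ A := by
      intro z hz a ha haQ haz
      obtain ⟨w, ⟨hwW, hwP⟩, hwN⟩ : ∃ w ∈ W ⊓ perp hQ (Submodule.span F {a}), w ∉ Submodule.span F {a} := by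
        refine SetLike.not_le_iff_exists.1 fun hle => ?_
        have := Submodule.finrank_mono hle
        have := finrank_le_inf_perp hQ W (Submodule.span F {a})
        have h4 : finrank F (Submodule.span F ({a} : Set (ι → F))) ≤ 1 := (finrank_span_le_card _).trans (by simp)
        omega
      have haw : bform hQ a w = 0 := (mem_perp_span_singleton hQ).1 hwP
      obtain ⟨w', hw', hw'a, hww'⟩ := exists_b_one_mem hQ (S := W) (T := Submodule.span F {a}) (v := w) (by
        intro hm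
        obtain ⟨t, ht, u, hu, e⟩ := Submodule.mem_sup.1 hm
        have htW : t ∈ W := (Submodule.span_singleton_le_iff_mem _ _).2 ha ht
        have hu0 : u = 0 := hW u (by rw [eq_sub_of_add_eq' e]; exact W.sub_mem hwW htW) hu
        rw [hu0, add_zero] at e
        exact hwN (e ▸ ht))
      have haw' : bform hQ a w' = 0 := (mem_perp_span_singleton hQ).1 hw'a
      have haws : bform hQ a (w + w') = 0 := by rw [map_add, haw, haw', add_zero]
      have h1 := A.sub_mem (A.add_mem (hdisp hz haQ haw ha hwW) (hdisp hz haQ haw' ha hw'))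
        (hdisp hz haQ haws ha (W.add_mem hwW hw'))
      simp only [eichler_mulVec hQ] at h1
      refine (A.smul_mem_iff haz).1 ?_
      convert h1 using 1
      rw [q_add hQ, hww', map_add, LinearMap.add_apply]
      module
    have hsing : ∀ a ∈ W, Q a = 0 → a ∈ A := by
      intro a ha haQ
      by_cases ha0 : a = 0
      · rw [ha0]; exact A.zero_mem
      by_cases hay : bform hQ a y ≠ 0
      · exact hstep y hyA a ha haQ hay
      obtain ⟨e, he, heQ, hey⟩ := exists_singular_b_ne_zero hQ hk hy hTn hy0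
      have heA := hstep y hyA e he heQ hey
      by_cases hea : bform hQ a e = 0
      swap
      · exact hstep e heA a ha haQ hea
      by_cases hm : a ∈ Submodule.span F {e}
      · exact (Submodule.span_singleton_le_iff_mem _ _).2 heA hm
      obtain ⟨f, hf, hfQ, hef, haf⟩ := exists_singular_partner_mem hQ hW ha he haQ hea hm
      have hne : ∀ u : ι → F, bform hQ a u = 1 → bform hQ u a ≠ 0 := fun u hu => by
        rw [b_symm hQ, hu]; exact one_ne_zero
      -- a common singular partner of `a` and `e`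
      obtain ⟨f₂, hf₂, hf₂Q, haf₂, hef₂⟩ := exists_singular_partner_mem hQ hW he ha heQ
        (by rw [b_symm hQ]; exact hea) (fun hm' => by
          obtain ⟨t, ht⟩ := Submodule.mem_span_singleton.1 hm'
          refine hm (Submodule.mem_span_singleton.2 ⟨t⁻¹, ?_⟩)
          rw [← ht, smul_smul, inv_mul_cancel₀, one_smul]
          intro h0
          rw [h0, zero_smul] at ht
          rw [← ht, map_zero, LinearMap.zero_apply] at hey
          exact hey rfl)
      set g := f + f₂ - (bform hQ f f₂) • a with hgdef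
      have hgW : g ∈ W := W.sub_mem (W.add_mem hf hf₂) (W.smul_mem _ ha)
      have hgQ : Q g = 0 := by
        rw [hgdef, q_sub hQ, q_add hQ, q_smul hQ, hfQ, hf₂Q, haQ, map_smul, map_add, LinearMap.add_apply,
          b_symm hQ f a, haf, b_symm hQ f₂ a, haf₂, smul_eq_mul]
        ring
      have hge : bform hQ g e = 1 := by
        rw [hgdef, map_sub, map_add, map_smul, LinearMap.sub_apply, LinearMap.add_apply, LinearMap.smul_apply,
          b_symm hQ f e, hef, b_symm hQ f₂ e, hef₂, hea]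
        simp
      have hag : bform hQ a g = 1 := by
        rw [hgdef, map_sub, map_add, map_smul, haf, haf₂, b_self hQ, haQ]
        simp
      exact hstep g (hstep e heA g hgW hgQ (by rw [hge]; exact one_ne_zero)) a ha haQ (by rw [hag]; exact one_ne_zero)
    intro w hw
    obtain ⟨a, ha, b, hb, haQ, hbQ, rfl⟩ := exists_two_singular hQ hW hk hw
    exact A.add_mem (hsing a ha haQ) (hsing b hb hbQ)
  -- small dimensions
  have hA : A ≤ W := fun z hz => hz.1
  obtain hk1 | hk2 : finrank F W ≤ 1 ∨ finrank F W = 2 := by omega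
  · refine (Submodule.eq_of_le_of_finrank_le hA ?_).ge
    have : Submodule.span F {y} ≤ A := (Submodule.span_singleton_le_iff_mem _ _).2 hyA
    have := Submodule.finrank_mono this
    rw [finrank_span_singleton hy0] at this
    omega
  obtain ⟨a, haA, haN⟩ : ∃ a ∈ A, a ∉ Submodule.span F {y} := by
    suffices h' : ∃ a ∈ W, Q a ≠ 0 ∧ bform hQ a y ≠ 0 ∧ a ∉ Submodule.span F {y} from
      let ⟨a, h1, h2, h3, h4⟩ := h'
      ⟨a, hrefl hyA h1 h2 h3, h4⟩
    by_cases haniso : ∀ x ∈ W, Q x = 0 → x = 0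
    · obtain ⟨z, hz, hzN⟩ : ∃ z ∈ W, z ∉ Submodule.span F {y} := by
        refine SetLike.not_le_iff_exists.1 fun hle => ?_
        have := Submodule.finrank_mono hle
        rw [finrank_span_singleton hy0] at this
        omega
      obtain ⟨x, hx, hyx⟩ := hTn y hy hy0
      by_cases hzy : bform hQ z y = 0
      · by_cases hxN : x ∈ Submodule.span F {y}
        · have hne : z + x ∉ Submodule.span F {y} := fun hm => hzN (by
            have := Submodule.sub_mem _ hm hxN
            rwa [add_sub_cancel_right] at this)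
          exact ⟨z + x, W.add_mem hz hx, fun h0 => hne (by rw [haniso _ (W.add_mem hz hx) h0]; exact zero_mem _),
            by rw [map_add, LinearMap.add_apply, hzy, zero_add, b_symm hQ]; exact hyx, hne⟩
        · exact ⟨x, hx, fun h0 => hxN (by rw [haniso x hx h0]; exact zero_mem _),
            by rw [b_symm hQ]; exact hyx, hxN⟩
      · exact ⟨z, hz, fun h0 => hzN (by rw [haniso z hz h0]; exact zero_mem _), hzy, hzN⟩
    · have hq := (hex hk2).resolve_left haniso
      push Not at haniso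
      obtain ⟨e, he, heQ, he0⟩ := haniso
      obtain ⟨x, hx, hex'⟩ := hTn e he he0
      obtain ⟨x', hx'W, hex1⟩ : ∃ x' ∈ W, bform hQ e x' = 1 :=
        ⟨(bform hQ e x)⁻¹ • x, W.smul_mem _ hx, by rw [map_smul, smul_eq_mul, inv_mul_cancel₀ hex']⟩
      obtain ⟨f, hfdef⟩ : ∃ f, f = x' - Q x' • e := ⟨_, rfl⟩
      have hf : f ∈ W := hfdef ▸ W.sub_mem hx'W (W.smul_mem _ he)
      have hee : bform hQ e e = 0 := by rw [b_self hQ, heQ, mul_zero]
      have hef : bform hQ e f = 1 := by rw [hfdef, map_sub, map_smul, hee, smul_zero, sub_zero, hex1]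
      have hfQ : Q f = 0 := by
        rw [hfdef, q_sub hQ, q_smul hQ, heQ, map_smul, b_symm hQ x' e, hex1, smul_eq_mul]; ring
      have hff : bform hQ f f = 0 := by rw [b_self hQ, hfQ, mul_zero]
      have := Fintype.ofFinite F
      set α := bform hQ f y
      set β := bform hQ e y
      obtain ⟨c, hc⟩ : ∃ c : F, c ∉ ({0, -β / α, β / α} : Finset F) := by
        by_contra hc
        push Not at hc
        have h1 := Finset.card_le_card (s := Finset.univ) (fun c _ => hc c)
        have h2 := Finset.card_insert_le (0 : F) ({-β / α, β / α} : Finset F)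
        have h3 := Finset.card_le_two (a := -β / α) (b := β / α)
        rw [Finset.card_univ, ← Nat.card_eq_fintype_card] at h1
        omega
      simp only [Finset.mem_insert, Finset.mem_singleton, not_or] at hc
      obtain ⟨hc0, hc1, hc2⟩ := hc
      refine ⟨e + c • f, W.add_mem he (W.smul_mem _ hf), ?_, ?_, ?_⟩
      · rw [q_add hQ, q_smul hQ, heQ, hfQ, map_smul, hef]; simpa using hc0
      · rw [map_add, map_smul, LinearMap.add_apply, LinearMap.smul_apply, smul_eq_mul]
        intro h0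
        by_cases hα : α = 0
        · have hβ : β = 0 := by linear_combination h0 - c * hα
          have hspan : Submodule.span F {e} ⊔ Submodule.span F {f} = W := by
            refine Submodule.eq_of_le_of_finrank_le (sup_le ((Submodule.span_singleton_le_iff_mem _ _).2 he)
              ((Submodule.span_singleton_le_iff_mem _ _).2 hf)) ?_
            have hlt : Submodule.span F {e} < Submodule.span F {e} ⊔ Submodule.span F {f} :=
              lt_of_le_of_ne le_sup_left fun heq => by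
                obtain ⟨t, ht⟩ := Submodule.mem_span_singleton.1
                  (heq.ge (Submodule.mem_sup_right (Submodule.mem_span_singleton_self f)))
                rw [← ht, map_smul, hee, smul_zero] at hef
                exact zero_ne_one hef
            have := Submodule.finrank_lt_finrank_of_lt hlt
            rw [finrank_span_singleton he0] at this
            omega
          refine hy0 (hW y hy fun w hw => ?_)
          rw [← hspan] at hw
          obtain ⟨p, hp, q, hq', rfl⟩ := Submodule.mem_sup.1 hw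
          obtain ⟨r, rfl⟩ := Submodule.mem_span_singleton.1 hp
          obtain ⟨r', rfl⟩ := Submodule.mem_span_singleton.1 hq'
          rw [map_add, map_smul, map_smul, LinearMap.add_apply, LinearMap.smul_apply, LinearMap.smul_apply]
          show r • β + r' • α = 0
          rw [hα, hβ]; simp
        · exact hc1 (by rw [eq_div_iff hα]; linear_combination h0)
      · intro hm
        obtain ⟨t, ht⟩ := Submodule.mem_span_singleton.1 hm
        have h1 := congrArg (fun z => bform hQ e z) ht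
        have h2 := congrArg (fun z => bform hQ f z) ht
        simp only [map_add, map_smul, smul_eq_mul, hee, hef, hff, b_symm hQ f e] at h1 h2
        have ht0 : t ≠ 0 := fun h => hc0 (by rw [h] at h1; linear_combination -h1)
        have hα : α ≠ 0 := fun h => one_ne_zero (show (1 : F) = 0 by linear_combination t * h - h2)
        refine hc2 ?_
        rw [eq_div_iff hα]
        refine mul_left_cancel₀ ht0 ?_
        linear_combination -h1 + c * h2
  refine (Submodule.eq_of_le_of_finrank_le hA ?_).ge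
  have hlt : Submodule.span F {y} < A := lt_of_le_of_ne ((Submodule.span_singleton_le_iff_mem _ _).2 hyA)
    fun e => haN (e ▸ haA)
  have := Submodule.finrank_lt_finrank_of_lt hlt
  rw [finrank_span_singleton hy0] at this
  omega

omit hMI hin hPM

/-- The stabiliser in Omega of a non-degenerate subspace is maximal, given singular lines in the perp and a
way to exclude overgroup elements moving every singular point of the perp out of it. -/
theorem nondeg_lines_isMaximal (hW : ∀ x ∈ W, x ∈ perp hQ W → x = 0) (hk0 : W ≠ ⊥)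
    (hlines : HasLines hQ (perp hQ W)) (hd3 : 3 ≤ finrank F (perp hQ W)) (hn : 5 ≤ Fintype.card ι)
    (hkill : ∀ M : Subgroup (GL ι F), subspaceStabilizer W ⊓ omegaGL Q ≤ M → M ≤ omegaGL Q →
      ∀ g ∈ M, g ∉ subspaceStabilizer W ⊓ omegaGL Q →
      ¬ ∀ x ∈ M, x ∉ subspaceStabilizer W ⊓ omegaGL Q → ∀ u ∈ perp hQ W, Q u = 0 → u ≠ 0 →
        (x : Matrix ι ι F) *ᵥ u ∉ perp hQ W)
    (hex : finrank F W = 2 → (∀ x ∈ W, Q x = 0 → x = 0) ∨ 4 ≤ Nat.card F) :
    IsMaximalIn (omegaGL Q) (subspaceStabilizer W ⊓ omegaGL Q) := by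
  have hsum := finrank_perp_add hQ W
  have htop : W ⊔ perp hQ W = ⊤ := by
    have h0 : W ⊓ perp hQ W = ⊥ := (Submodule.eq_bot_iff _).2 fun x hx => hW x hx.1 hx.2
    have h1 := Submodule.finrank_sup_add_finrank_inf_eq W (perp hQ W)
    rw [h0, finrank_bot] at h1
    exact Submodule.eq_top_of_finrank_eq (by rw [finrank_fintype_fun_eq_card]; omega)
  have hW' : ∀ x ∈ perp hQ W, x ∈ perp hQ (perp hQ W) → x = 0 := fun x hx hx' =>
    hW x (by rwa [perp_perp hQ] at hx') hx
  have hsplit : ∀ v : ι → F, ∃ p ∈ W, ∃ q ∈ perp hQ W, p + q = v := fun v =>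
    Submodule.mem_sup.1 (htop ▸ Submodule.mem_top)
  obtain ⟨y₀, hy₀, hy₀0⟩ := Submodule.exists_mem_ne_zero_of_ne_bot hk0
  obtain ⟨s₀, hs₀, hs₀0, hs₀Q⟩ := exists_singular hQ (S := perp hQ W) (by omega)
  refine ⟨lt_of_le_not_ge inf_le_right fun hle => ?_, fun M hPM hMΩ => ?_⟩
  · have hsy : bform hQ s₀ y₀ = 0 := by rw [b_symm hQ]; exact hs₀ y₀ hy₀
    obtain ⟨x, hx, hxy⟩ := exists_mem_b_ne_zero hQ (fun h => hy₀0 (hW y₀ hy₀ h))
    have h1 := (mem_subspaceStabilizer.1 (hle (eichler_mem_omega hQ hn hs₀Q hsy)).1 x).1 hx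
    rw [eichler_mulVec hQ, b_symm hQ s₀ x, hs₀ x hx, b_symm hQ y₀ x] at h1
    simp only [zero_smul, mul_zero, sub_zero] at h1
    have h2 : bform hQ x y₀ • s₀ ∈ W := by simpa using W.sub_mem h1 hx
    exact hs₀0 (hW s₀ ((W.smul_mem_iff hxy).1 h2) hs₀)
  set P := subspaceStabilizer W ⊓ omegaGL Q with hPdef
  by_cases hMP : M ≤ P
  · exact Or.inl (le_antisymm hMP hPM)
  refine Or.inr (le_antisymm hMΩ ?_)
  have hMI : M ≤ Cfsg.isometryGroup F Q := hMΩ.trans omegaGL_le
  have hin : ∀ u ∈ perp hQ W, Q u = 0 → ∀ w ∈ perp hQ W, bform hQ u w = 0 → EIn Q M u w :=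
    fun u hu huQ w hw huw => (eIn_of_mem hQ huQ huw (H := P) ⟨mem_subspaceStabilizer_of_le fun x hx => by
      rw [eichler_fix hQ huQ huw (by rw [b_symm hQ]; exact hu x hx) (by rw [b_symm hQ]; exact hw x hx)]
      exact hx, eichler_mem_omega hQ hn huQ huw⟩).mono hPM
  have hstab : ∀ g ∈ M, (∀ x ∈ perp hQ W, (g : Matrix ι ι F) *ᵥ x ∈ perp hQ W) → g ∈ P := by
    intro g hg h
    have hgI := hMI hg
    refine ⟨mem_subspaceStabilizer_of_le fun x hx => ?_, hMΩ hg⟩
    rw [← perp_perp hQ W]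
    intro z hz
    obtain ⟨z', rfl⟩ : ∃ z', z = (g : Matrix ι ι F) *ᵥ z' := ⟨_, (mulVec_inv_cancel g z).symm⟩
    rw [isometry_b hQ hgI, b_symm hQ]
    exact ((mem_subspaceStabilizer.1 (mem_subspaceStabilizer_of_le h) z').2 hz) x hx
  -- a mixed root element
  have caseA : ∀ g ∈ M, g ∉ P → ∀ u ∈ perp hQ W, Q u = 0 → u ≠ 0 → (g : Matrix ι ι F) *ᵥ u ∈ perp hQ W →
      ∃ s ∈ perp hQ W, Q s = 0 ∧ s ≠ 0 ∧ ∃ y ∈ W, y ≠ 0 ∧ EIn Q M s y := by
    intro g hg hgP u hu huQ hu0 hgu
    have hgI := hMI hg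
    have step : ∀ u ∈ perp hQ W, Q u = 0 → u ≠ 0 → (g : Matrix ι ι F) *ᵥ u ∈ perp hQ W →
        ∀ w ∈ perp hQ W, bform hQ u w = 0 → (g : Matrix ι ι F) *ᵥ w ∉ perp hQ W →
        ∃ s ∈ perp hQ W, Q s = 0 ∧ s ≠ 0 ∧ ∃ y ∈ W, y ≠ 0 ∧ EIn Q M s y := by
      intro u hu huQ hu0 hgu w hw huw hgw
      obtain ⟨p, hp, q, hq, e⟩ := hsplit ((g : Matrix ι ι F) *ᵥ w)
      have hQgu : Q ((g : Matrix ι ι F) *ᵥ u) = 0 := by rw [mem_isometryGroup.1 hgI, huQ]
      have hguw : bform hQ ((g : Matrix ι ι F) *ᵥ u) ((g : Matrix ι ι F) *ᵥ w) = 0 := by rw [isometry_b hQ hgI, huw]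
      have hgup : bform hQ ((g : Matrix ι ι F) *ᵥ u) p = 0 := by rw [b_symm hQ]; exact hgu p hp
      have hguq : bform hQ ((g : Matrix ι ι F) *ᵥ u) q = 0 := by rwa [← e, map_add, hgup, zero_add] at hguw
      refine ⟨_, hgu, hQgu, fun h0 => hu0 ?_, p, hp, fun h0 => hgw (by rw [← e, h0, zero_add]; exact hq), ?_⟩
      · rw [← inv_mulVec_cancel g u, h0, Matrix.mulVec_zero]
      · have := ((hin u hu huQ w hw huw).conj hQ huQ huw hg hgI).sub hQ (hin _ hgu hQgu q hq hguq) hQgu hguw hguq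
        rwa [← e, add_sub_cancel_right] at this
    by_contra hnone
    have hperp : ∀ u ∈ perp hQ W, Q u = 0 → u ≠ 0 → (g : Matrix ι ι F) *ᵥ u ∈ perp hQ W →
        ∀ w ∈ perp hQ W, bform hQ u w = 0 → (g : Matrix ι ι F) *ᵥ w ∈ perp hQ W :=
      fun u hu huQ hu0 hgu w hw huw => by_contra fun hgw => hnone (step u hu huQ hu0 hgu w hw huw hgw)
    obtain ⟨u', hu', hu'Q, huu', hu'N⟩ := hlines u hu huQ hu0
    have hu'0 : u' ≠ 0 := fun h0 => hu'N (h0 ▸ zero_mem _)
    have hgu' := hperp u hu huQ hu0 hgu u' hu' huu'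
    obtain ⟨z, hz, -, hu'z, huz⟩ := exists_singular_partner_mem hQ hW' hu hu' huQ huu' (fun hm => hu'N (by
      obtain ⟨t, ht⟩ := Submodule.mem_span_singleton.1 hm
      refine Submodule.mem_span_singleton.2 ⟨t⁻¹, ?_⟩
      rw [← ht, smul_smul, inv_mul_cancel₀ (fun h0 => hu0 (by rw [← ht, h0, zero_smul])), one_smul]))
    refine hgP (hstab g hg fun x hx => ?_)
    have h1 := hperp u hu huQ hu0 hgu (x - bform hQ u x • z) (Submodule.sub_mem _ hx (Submodule.smul_mem _ _ hz))
      (by rw [map_sub, map_smul, huz, smul_eq_mul, mul_one, sub_self])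
    have h2 := hperp u' hu' hu'Q hu'0 hgu' (bform hQ u x • z) (Submodule.smul_mem _ _ hz)
      (by rw [map_smul, hu'z, smul_zero])
    have := Submodule.add_mem _ h1 h2
    rwa [← Matrix.mulVec_add, sub_add_cancel] at this
  obtain ⟨g, hgM, hgP⟩ := SetLike.not_le_iff_exists.1 hMP
  have hgI := hMI hgM
  have hmixed : ∃ s ∈ perp hQ W, Q s = 0 ∧ s ≠ 0 ∧ ∃ y ∈ W, y ≠ 0 ∧ EIn Q M s y := by
    by_contra hnone
    have hno : ∀ x ∈ M, x ∉ P → ∀ u ∈ perp hQ W, Q u = 0 → u ≠ 0 → (x : Matrix ι ι F) *ᵥ u ∉ perp hQ W :=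
      fun x hx hxP u hu huQ hu0 h => hnone (caseA x hx hxP u hu huQ hu0 h)
    exact hkill M hPM hMΩ g hgM hgP hno
  obtain ⟨s, hs, hsQ, hs0, y, hy, hy0, hsy⟩ := hmixed
  have hfill := mixed_fill hQ hMI hin hPM hW hn hlines hex hs hy hy0 hsQ hs0 hsy
  have hroot : ∀ v ∈ perp hQ W, Q v = 0 → ∀ x, bform hQ v x = 0 → EIn Q M v x := by
    intro v hv hvQ x hvx
    obtain ⟨p, hp, q, hq, rfl⟩ := hsplit x
    have hvp : bform hQ v p = 0 := by rw [b_symm hQ]; exact hv p hp
    have hvq : bform hQ v q = 0 := by rwa [map_add, hvp, zero_add] at hvx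
    exact (hfill v hv hvQ p hp).add hQ (hin v hv hvQ q hq hvq) hvQ hvp hvq
  refine omega_le_of_root_vectors hQ hn hMI
    {z | ∃ h ∈ M, ∃ v ∈ perp hQ W, Q v = 0 ∧ z = (h : Matrix ι ι F) *ᵥ v} ?_ ?_
  · rintro _ ⟨h, hhM, v, hv, hvQ, rfl⟩
    have hhI := hMI hhM
    refine ⟨by rw [mem_isometryGroup.1 hhI, hvQ], fun x hx => ?_⟩
    obtain ⟨x', rfl⟩ : ∃ x', x = (h : Matrix ι ι F) *ᵥ x' := ⟨_, (mulVec_inv_cancel h x).symm⟩
    rw [isometry_b hQ hhI] at hx
    exact (hroot v hv hvQ x' hx).conj hQ hvQ hx hhM hhI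
  · intro u _ hu0
    obtain ⟨p, hp, q, hq, rfl⟩ := hsplit u
    have hTn : ∀ x ∈ perp hQ W, x ≠ 0 → ∃ y ∈ perp hQ W, bform hQ x y ≠ 0 := fun x hx hx0 => by
      obtain ⟨y, hy, hyx⟩ := exists_mem_b_ne_zero hQ (fun h => hx0 (hW' x hx h))
      exact ⟨y, hy, by rw [b_symm hQ]; exact hyx⟩
    by_cases hq0 : q = 0
    · subst hq0
      rw [add_zero] at hu0 ⊢
      obtain ⟨y', hy', hy'p⟩ := exists_mem_b_ne_zero hQ (fun h => hu0 (hW p hp h))
      obtain ⟨f, hf, hfQ, -, hs₀f⟩ := exists_singular_partner_mem hQ hW' hs₀ (u := 0) (Submodule.zero_mem _) hs₀Q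
        (map_zero _) (by simpa using hs₀0)
      have hsy' : bform hQ s₀ y' = 0 := by rw [b_symm hQ]; exact hs₀ y' hy'
      have hh := (hfill s₀ hs₀ hs₀Q y' hy').mem hQ hs₀Q hsy'
      have hhI := hMI hh
      refine ⟨_, ⟨_, hh, f, hf, hfQ, rfl⟩, _, ⟨_, hh, s₀, hs₀, hs₀Q, rfl⟩, ?_, ?_⟩
      · rw [isometry_b hQ hhI, b_symm hQ, hs₀f]; exact one_ne_zero
      · rw [eichler_mulVec hQ, hs₀f, b_symm hQ y' f]
        simp only [map_sub, map_add, map_smul, LinearMap.sub_apply, LinearMap.add_apply, LinearMap.smul_apply,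
          b_symm hQ f y', hf y' hy', b_symm hQ f p, hf p hp, b_symm hQ s₀ p, hs₀ p hp, smul_eq_mul]
        simpa using hy'p
    · obtain ⟨z, hz, hzQ, hzq⟩ := exists_singular_b_ne_zero hQ (by omega) hq hTn hq0
      have hz0 : z ≠ 0 := fun h0 => hzq (by rw [h0, map_zero, LinearMap.zero_apply])
      obtain ⟨v, hv, hvQ, -, hzv⟩ := exists_singular_partner_mem hQ hW' hz (u := 0) (Submodule.zero_mem _) hzQ
        (map_zero _) (by simpa using hz0)
      refine ⟨z, ⟨1, M.one_mem, z, hz, hzQ, by simp⟩, v, ⟨1, M.one_mem, v, hv, hvQ, by simp⟩,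
        by rw [hzv]; exact one_ne_zero, ?_⟩
      rw [map_add, b_symm hQ z p, hz p hp, zero_add]
      exact hzq



end CfsgLib.OrthEight96
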