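import Cfsg.Agent.OrthEight96.Small

/-! Stabilisers of non-degenerate subspaces smaller than a perp of dimension at least five. -/

set_option autoImplicit false
set_option linter.unusedSectionVars false

namespace CfsgLib.OrthEight96

open Cfsg.Geo Module CfsgLib.OrthGeo
open scoped Matrix MatrixGroups commutatorElement

variable {ι : Type} [Fintype ι] [DecidableEq ι] {F : Type*} [Field F] [Finite F]
variable {Q : (ι → F) → F} (hQ : IsNondegenerateQuadraticForm Q) {W : Submodule F (ι → F)}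
include hQ

/-- The stabiliser in Omega of a non-degenerate subspace whose perp has dimension at least five is maximal,
given that no element of Omega maps the perp into the subspace. -/
theorem nondeg_five_isMaximal (hW : ∀ x ∈ W, x ∈ perp hQ W → x = 0) (hk0 : W ≠ ⊥)
    (hdim' : 5 ≤ finrank F (perp hQ W))
    (hswap : ∀ g ∈ omegaGL Q, ∃ x ∈ perp hQ W, (g : Matrix ι ι F) *ᵥ x ∉ W)
    (hex : finrank F W = 2 → (∀ x ∈ W, Q x = 0 → x = 0) ∨ 4 ≤ Nat.card F) :
    IsMaximalIn (omegaGL Q) (subspaceStabilizer W ⊓ omegaGL Q) := by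
  have hsum := finrank_perp_add hQ W
  have hn : 5 ≤ Fintype.card ι := by omega
  refine nondeg_lines_isMaximal hQ hW hk0 (hasLines_of_five_le hQ hdim') (by omega) hn
    (fun M hPM hMΩ g hgM hgP hno => ?_) hex
  have htop : W ⊔ perp hQ W = ⊤ := by
    have h0 : W ⊓ perp hQ W = ⊥ := (Submodule.eq_bot_iff _).2 fun x hx => hW x hx.1 hx.2
    have h1 := Submodule.finrank_sup_add_finrank_inf_eq W (perp hQ W)
    rw [h0, finrank_bot] at h1
    exact Submodule.eq_top_of_finrank_eq (by rw [finrank_fintype_fun_eq_card]; omega)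
  have hW' : ∀ x ∈ perp hQ W, x ∈ perp hQ (perp hQ W) → x = 0 := fun x hx hx' =>
    hW x (by rwa [perp_perp hQ] at hx') hx
  have hsplit : ∀ v : ι → F, ∃ p ∈ W, ∃ q ∈ perp hQ W, p + q = v := fun v =>
    Submodule.mem_sup.1 (htop ▸ Submodule.mem_top)
  set P := subspaceStabilizer W ⊓ omegaGL Q with hPdef
  have hMI : M ≤ Cfsg.isometryGroup F Q := hMΩ.trans omegaGL_le
  have hgI := hMI hgM
  have hin : ∀ u ∈ perp hQ W, Q u = 0 → ∀ w ∈ perp hQ W, bform hQ u w = 0 → EIn Q M u w :=
    fun u hu huQ w hw huw => (eIn_of_mem hQ huQ huw (H := P) ⟨mem_subspaceStabilizer_of_le fun x hx => by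
      rw [eichler_fix hQ huQ huw (by rw [b_symm hQ]; exact hu x hx) (by rw [b_symm hQ]; exact hw x hx)]
      exact hx, eichler_mem_omega hQ hn huQ huw⟩).mono hPM
  have hinto : ∀ u ∈ perp hQ W, Q u = 0 → (g : Matrix ι ι F) *ᵥ u ∈ W := by
    intro u hu huQ
    by_cases hu0 : u = 0
    · rw [hu0, Matrix.mulVec_zero]; exact W.zero_mem
    obtain ⟨w, ⟨hw, hwP⟩, hwQ, hw0, hwN⟩ := exists_singular_avoid hQ
      (T := perp hQ W ⊓ perp hQ (Submodule.span F {u})) (P := Submodule.span F {u}) (by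
        have := finrank_le_inf_perp hQ (perp hQ W) (Submodule.span F {u})
        have h4 : finrank F (Submodule.span F ({u} : Set (ι → F))) ≤ 1 := (finrank_span_le_card _).trans (by simp)
        by_contra hcon
        omega)
    have huw : bform hQ u w = 0 := (mem_perp_span_singleton hQ).1 hwP
    obtain ⟨x, hx, ex⟩ := (hin u hu huQ w hw huw).conj hQ huQ huw hgM hgI
    set gu := (g : Matrix ι ι F) *ᵥ u with hgudef
    set gw := (g : Matrix ι ι F) *ᵥ w with hgwdef
    have hQgw : Q gw = 0 := by rw [hgwdef, mem_isometryGroup.1 hgI, hwQ]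
    have hxy : ∀ z, (x : Matrix ι ι F) *ᵥ z = z + bform hQ gw z • gu - bform hQ gu z • gw := fun z => by
      rw [ex, eichlerMat_mulVec hQ, hQgw]; simp
    have hxP : x ∈ P := by
      by_contra hxP
      obtain ⟨z, ⟨hz, hzP⟩, hz0, hzQ⟩ := exists_singular hQ
        (S := perp hQ W ⊓ perp hQ (Submodule.span F {gu} ⊔ Submodule.span F {gw})) (by
          have := finrank_le_inf_perp hQ (perp hQ W) (Submodule.span F {gu} ⊔ Submodule.span F {gw})
          have := finrank_span_pair_le hQ gu gw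
          by_contra hcon
          omega)
      obtain ⟨h1, h2⟩ := (mem_perp_pair hQ).1 hzP
      exact hno x hx hxP z hz hzQ hz0 (by rw [hxy, h1, h2]; simpa using hz)
    obtain ⟨p₁, hp₁, q₁, hq₁, e₁⟩ := hsplit gu
    obtain ⟨p₂, hp₂, q₂, hq₂, e₂⟩ := hsplit gw
    have hkey : ∀ z ∈ W, bform hQ p₂ z • q₁ = bform hQ p₁ z • q₂ := by
      intro z hz
      have h1 := W.sub_mem ((mem_subspaceStabilizer.1 hxP.1 z).1 hz) hz
      rw [hxy, ← e₁, ← e₂, map_add, map_add, LinearMap.add_apply, LinearMap.add_apply, b_symm hQ q₁ z, hq₁ z hz,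
        b_symm hQ q₂ z, hq₂ z hz, add_zero, add_zero] at h1
      have h2 : bform hQ p₂ z • q₁ - bform hQ p₁ z • q₂ ∈ W := by
        have h3 := W.sub_mem h1 (W.sub_mem (W.smul_mem (bform hQ p₂ z) hp₁) (W.smul_mem (bform hQ p₁ z) hp₂))
        convert h3 using 1
        module
      exact sub_eq_zero.1 (hW _ h2 (Submodule.sub_mem _ (Submodule.smul_mem _ _ hq₁) (Submodule.smul_mem _ _ hq₂)))
    by_cases hdep : p₂ ∈ Submodule.span F {p₁}
    · exfalso
      obtain ⟨t, ht⟩ := Submodule.mem_span_singleton.1 hdep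
      refine hno g hgM hgP (w - t • u) (Submodule.sub_mem _ hw (Submodule.smul_mem _ _ hu)) ?_ ?_ ?_
      · rw [q_sub hQ, q_smul hQ, hwQ, huQ, map_smul, b_symm hQ w u, huw]; simp
      · exact fun h0 => hwN (Submodule.mem_span_singleton.2 ⟨t, (sub_eq_zero.1 h0).symm⟩)
      · rw [Matrix.mulVec_sub, Matrix.mulVec_smul, ← hgudef, ← hgwdef, ← e₁, ← e₂, ← ht, smul_add,
          show t • p₁ + q₂ - (t • p₁ + t • q₁) = q₂ - t • q₁ by abel]
        exact Submodule.sub_mem _ hq₂ (Submodule.smul_mem _ _ hq₁)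
    obtain ⟨z, hz, hzP, hzp⟩ := exists_b_one_mem hQ (S := W) (T := Submodule.span F {p₁}) (v := p₂) (by
      intro hm
      obtain ⟨t, ht, v, hv, e⟩ := Submodule.mem_sup.1 hm
      have htW : t ∈ W := (Submodule.span_singleton_le_iff_mem _ _).2 hp₁ ht
      have hv0 : v = 0 := hW v (by rw [eq_sub_of_add_eq' e]; exact W.sub_mem hp₂ htW) hv
      rw [hv0, add_zero] at e
      exact hdep (e ▸ ht))
    have h1 := hkey z hz
    rw [hzp, (mem_perp_span_singleton hQ).1 hzP, one_smul, zero_smul] at h1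
    rw [← e₁, h1, add_zero]
    exact hp₁
  have hall : ∀ x ∈ perp hQ W, (g : Matrix ι ι F) *ᵥ x ∈ W := fun x hx => by
    obtain ⟨a, ha, b, hb, haQ, hbQ, rfl⟩ := exists_two_singular hQ hW' (by omega) hx
    rw [Matrix.mulVec_add]
    exact W.add_mem (hinto a ha haQ) (hinto b hb hbQ)
  obtain ⟨x, hx, hxW⟩ := hswap g (hMΩ hgM)
  exact hxW (hall x hx)

/-- The stabiliser in Omega of a non-degenerate subspace smaller than its perp, which has dimension at least
five, is maximal. -/
theorem nondeg_small_five_isMaximal (hW : ∀ x ∈ W, x ∈ perp hQ W → x = 0) (hk0 : W ≠ ⊥)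
    (hdim' : 5 ≤ finrank F (perp hQ W)) (hlt : finrank F W < finrank F (perp hQ W))
    (hex : finrank F W = 2 → (∀ x ∈ W, Q x = 0 → x = 0) ∨ 4 ≤ Nat.card F) :
    IsMaximalIn (omegaGL Q) (subspaceStabilizer W ⊓ omegaGL Q) := by
  refine nondeg_five_isMaximal hQ hW hk0 hdim' (fun g _ => ?_) hex
  by_contra hall
  push Not at hall
  have hinj : Function.Injective (Matrix.toLin' (g : Matrix ι ι F)) := fun x y hxy => by
    simp only [Matrix.toLin'_apply] at hxy
    rw [← inv_mulVec_cancel g x, hxy, inv_mulVec_cancel]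
  have h1 := Submodule.finrank_mono (show (perp hQ W).map (Matrix.toLin' (g : Matrix ι ι F)) ≤ W from by
    rintro _ ⟨x, hx, rfl⟩
    rw [Matrix.toLin'_apply]
    exact hall x hx)
  rw [← (Submodule.equivMapOfInjective _ hinj _).finrank_eq] at h1
  omega

end CfsgLib.OrthEight96
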