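import Cfsg.Agent.OrthEight96.Lines

/-! Totally singular subspaces of maximal dimension built from two four-dimensional halves. -/

set_option autoImplicit false
set_option linter.unusedSectionVars false

namespace CfsgLib.OrthEight96

open Cfsg.Geo Module CfsgLib.OrthGeo
open scoped Matrix MatrixGroups

variable {ι : Type} [Fintype ι] [DecidableEq ι] {F : Type*} [Field F] [Finite F]
variable {Q : (ι → F) → F} (hQ : IsNondegenerateQuadraticForm Q)
include hQ

/-- In characteristic two two values missed by `x ↦ a x² + x` differ by a value taken. -/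
lemma exists_artin_schreier (h2 : (2 : F) = 0) {a c d : F} (ha : a ≠ 0) (hc : ∀ x : F, a * x ^ 2 + x ≠ c)
    (hd : ∀ x : F, a * x ^ 2 + x ≠ d) : ∃ x : F, a * x ^ 2 + x = c + d := by
  classical
  have := Fintype.ofFinite F
  by_contra hcd
  push Not at hcd
  set S := Finset.univ.image (fun x : F => a * x ^ 2 + x) with hS
  set T := S.image (fun y => y + c) with hT
  have hfib : Fintype.card F ≤ 2 * S.card := by
    refine (Finset.card_le_mul_card_image_of_maps_to (f := fun x : F => a * x ^ 2 + x)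
      (fun x hx => Finset.mem_image_of_mem _ hx) 2 fun y hy => ?_)
    obtain ⟨z, -, rfl⟩ := Finset.mem_image.1 hy
    refine le_trans (Finset.card_le_card (t := {z, a⁻¹ - z}) fun x hx => ?_) Finset.card_le_two
    have hx' := (Finset.mem_filter.1 hx).2
    simp only [Finset.mem_insert, Finset.mem_singleton]
    have h : (x - z) * (a * (x + z) + 1) = 0 := by linear_combination hx'
    rcases mul_eq_zero.1 h with h | h
    · exact Or.inl (sub_eq_zero.1 h)
    · refine Or.inr ?_
      field_simp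
      linear_combination h - h2
  have hTc : T.card = S.card := Finset.card_image_of_injective _ (add_left_injective c)
  have hdisj : Disjoint S T := Finset.disjoint_left.2 fun y hy hy' => by
    obtain ⟨x, -, rfl⟩ := Finset.mem_image.1 hy
    obtain ⟨w, hw, hwe⟩ := Finset.mem_image.1 hy'
    obtain ⟨z, -, rfl⟩ := Finset.mem_image.1 hw
    exact hc (x + z) (by linear_combination -hwe + (a * z ^ 2 + a * x * z + z) * h2)
  have hdST : d ∉ S ∪ T := by
    rw [Finset.mem_union, not_or]
    refine ⟨fun h => ?_, fun h => ?_⟩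
    · obtain ⟨x, -, hx⟩ := Finset.mem_image.1 h
      exact hd x hx
    · obtain ⟨w, hw, hwe⟩ := Finset.mem_image.1 h
      obtain ⟨z, -, rfl⟩ := Finset.mem_image.1 hw
      exact hcd z (by linear_combination hwe - c * h2)
  have h := Finset.card_lt_card (t := Finset.univ) ⟨Finset.subset_univ (S ∪ T), fun h => hdST (h (Finset.mem_univ d))⟩
  rw [Finset.card_union_of_disjoint hdisj, Finset.card_univ] at h
  omega

/-- The sum of two orthogonal anisotropic planes has a totally singular plane. -/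
lemma exists_ts_plane_of_aniso {M M' : Submodule F (ι → F)} (hM : finrank F M = 2) (hM' : finrank F M' = 2)
    (hMr : ∀ x ∈ M, x ∈ perp hQ M → x = 0) (hMr' : ∀ x ∈ M', x ∈ perp hQ M' → x = 0)
    (han : ∀ x ∈ M, Q x = 0 → x = 0) (han' : ∀ x ∈ M', Q x = 0 → x = 0)
    (horth : ∀ x ∈ M, ∀ y ∈ M', bform hQ x y = 0) :
    ∃ L : Submodule F (ι → F), L ≤ M ⊔ M' ∧ (∀ x ∈ L, Q x = 0) ∧ finrank F L = 2 := by
  classical
  have := Fintype.ofFinite F
  obtain ⟨a, haM, ha0⟩ := Submodule.exists_mem_ne_zero_of_ne_bot (p := M) fun h => by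
    rw [h, finrank_bot] at hM; omega
  have haQ : Q a ≠ 0 := fun h => ha0 (han a haM h)
  have hsep : ∀ x ∈ M, x ∈ M' → x = 0 := fun x hx hx' => hMr x hx fun z hz => horth z hz x hx'
  obtain ⟨b, hbM, hbQ⟩ : ∃ b ∈ M', Q a + Q b = 0 := by
    obtain ⟨s, hs, hs0, hsQ⟩ := exists_singular hQ (S := M' ⊔ Submodule.span F {a}) (by
      have h1 := Submodule.finrank_sup_add_finrank_inf_eq M' (Submodule.span F {a})
      have h2 : M' ⊓ Submodule.span F {a} = ⊥ := (Submodule.eq_bot_iff _).2 fun x hx =>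
        hsep x ((Submodule.span_singleton_le_iff_mem _ _).2 haM hx.2) hx.1
      rw [h2, finrank_bot, finrank_span_singleton ha0] at h1
      omega)
    obtain ⟨b, hb, c, hc, rfl⟩ := Submodule.mem_sup.1 hs
    obtain ⟨t, rfl⟩ := Submodule.mem_span_singleton.1 hc
    rw [q_add hQ, q_smul hQ, map_smul, b_symm hQ b a, horth a haM b hb, smul_zero, add_zero] at hsQ
    by_cases ht : t = 0
    · rw [ht] at hsQ hs0
      rw [zero_smul, add_zero] at hs0
      exact absurd (han' b hb (by linear_combination hsQ)) hs0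
    refine ⟨t⁻¹ • b, M'.smul_mem _ hb, ?_⟩
    rw [q_smul hQ]
    field_simp
    linear_combination hsQ
  have hbQ0 : Q b ≠ 0 := fun h => haQ (by linear_combination hbQ - h)
  have key : ∀ z w : ι → F, z ∈ M → w ∈ M' → Q z + Q w = 0 → bform hQ a z + bform hQ b w = 0 →
      z ∉ Submodule.span F {a} → ∃ L : Submodule F (ι → F), L ≤ M ⊔ M' ∧ (∀ x ∈ L, Q x = 0) ∧ finrank F L = 2 := by
    intro z w hz hw hzw hB hzN
    refine ⟨Submodule.span F {a + b} ⊔ Submodule.span F {z + w}, sup_le
      ((Submodule.span_singleton_le_iff_mem _ _).2 (Submodule.add_mem_sup haM hbM))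
      ((Submodule.span_singleton_le_iff_mem _ _).2 (Submodule.add_mem_sup hz hw)), fun x hx => ?_, ?_⟩
    · obtain ⟨_, h1, _, h2, rfl⟩ := Submodule.mem_sup.1 hx
      obtain ⟨s, rfl⟩ := Submodule.mem_span_singleton.1 h1
      obtain ⟨t, rfl⟩ := Submodule.mem_span_singleton.1 h2
      simp only [q_add hQ, q_smul hQ, map_add, map_smul, LinearMap.add_apply, LinearMap.smul_apply, smul_eq_mul,
        horth a haM b hbM, horth a haM w hw, horth z hz w hw, b_symm hQ b z, horth z hz b hbM]
      linear_combination s ^ 2 * hbQ + t ^ 2 * hzw + s * t * hB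
    · refine le_antisymm (finrank_span_pair_le hQ _ _) ?_
      have hab0 : a + b ≠ 0 := fun h => ha0 (hsep a haM (by
        rw [eq_neg_of_add_eq_zero_left h]; exact M'.neg_mem hbM))
      have hlt : Submodule.span F {a + b} < Submodule.span F {a + b} ⊔ Submodule.span F {z + w} :=
        lt_of_le_of_ne le_sup_left fun heq => by
          obtain ⟨r, hr⟩ := Submodule.mem_span_singleton.1
            (heq.ge (Submodule.mem_sup_right (Submodule.mem_span_singleton_self (z + w))))
          refine hzN (Submodule.mem_span_singleton.2 ⟨r, (sub_eq_zero.1 (hsep (z - r • a)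
            (M.sub_mem hz (M.smul_mem r haM)) ?_)).symm⟩)
          have : z - r • a = r • b - w := by
            rw [smul_add] at hr
            linear_combination (norm := module) -hr
          rw [this]
          exact M'.sub_mem (M'.smul_mem r hbM) hw
      have := Submodule.finrank_lt_finrank_of_lt hlt
      rw [finrank_span_singleton hab0] at this
      omega
  by_cases h2 : (2 : F) = 0
  · have hB0 : ∀ x : ι → F, bform hQ x x = 0 := fun x => by rw [b_self hQ, h2, zero_mul]
    have hone : ∀ (N : Submodule F (ι → F)), (∀ x ∈ N, x ∈ perp hQ N → x = 0) → ∀ c ∈ N, c ≠ 0 →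
        ∃ c' ∈ N, bform hQ c c' = 1 := by
      intro N hN c hc hc0
      obtain ⟨x, hx, hxc⟩ := exists_mem_b_ne_zero hQ (fun h => hc0 (hN c hc h))
      refine ⟨(bform hQ c x)⁻¹ • x, N.smul_mem _ hx, ?_⟩
      rw [map_smul, smul_eq_mul, inv_mul_cancel₀]
      rwa [b_symm hQ]
    obtain ⟨a', ha', haa'⟩ := hone M hMr a haM ha0
    obtain ⟨b', hb', hbb'⟩ := hone M' hMr' b hbM (fun h => hbQ0 (by rw [h, q_zero hQ]))
    have hav : ∀ (N : Submodule F (ι → F)), (∀ x ∈ N, Q x = 0 → x = 0) → ∀ c c', c ∈ N → c' ∈ N →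
        bform hQ c c' = 1 → Q c = Q a → ∀ x : F, Q a * x ^ 2 + x ≠ Q c' := by
      intro N hN c c' hc hc' hcc hcQ x hx
      have h0 : c' + x • c = 0 := hN _ (N.add_mem hc' (N.smul_mem x hc)) (by
        rw [q_add hQ, q_smul hQ, map_smul, b_symm hQ c' c, hcc, hcQ, smul_eq_mul]
        linear_combination hx + Q c' * h2)
      have h1 := congrArg (bform hQ c) h0
      rw [map_add, map_smul, hcc, hB0, smul_zero, add_zero, map_zero] at h1
      exact one_ne_zero h1
    obtain ⟨x, hx⟩ := exists_artin_schreier hQ h2 haQ (hav M han a a' haM ha' haa' rfl)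
      (hav M' han' b b' hbM hb' hbb' (by linear_combination hbQ - Q a * h2))
    refine key (a' + x • a) b' (M.add_mem ha' (M.smul_mem x haM)) hb' ?_ ?_ fun h => ?_
    · rw [q_add hQ, q_smul hQ, map_smul, b_symm hQ a' a, haa', smul_eq_mul]
      linear_combination hx + (Q a' + Q b') * h2
    · rw [map_add, map_smul, haa', hB0, hbb', smul_zero]
      linear_combination h2
    · obtain ⟨r, hr⟩ := Submodule.mem_span_singleton.1 h
      have h1 := congrArg (bform hQ a) hr
      rw [map_add, map_smul, map_smul, haa', hB0, smul_zero, smul_zero, add_zero] at h1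
      exact zero_ne_one h1
  have hperp : ∀ (N : Submodule F (ι → F)), finrank F N = 2 → (∀ x ∈ N, Q x = 0 → x = 0) → ∀ c ∈ N,
      c ≠ 0 → ∃ d ∈ N, bform hQ c d = 0 ∧ Q d ≠ 0 ∧ ¬ IsSquare (-(Q c * Q d)) := by
    intro N hN hNa c hc hc0
    obtain ⟨d, ⟨hd, hdc⟩, hd0⟩ : ∃ d ∈ N ⊓ perp hQ (Submodule.span F {c}), d ≠ 0 := by
      refine Submodule.exists_mem_ne_zero_of_ne_bot fun h => ?_
      have h1 := finrank_le_inf_perp hQ N (Submodule.span F {c})
      rw [h, finrank_bot, finrank_span_singleton hc0] at h1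
      omega
    replace hdc := (mem_perp_span_singleton hQ).1 hdc
    refine ⟨d, hd, hdc, fun h => hd0 (hNa d hd h), ?_⟩
    rintro ⟨r, hr⟩
    have h0 : r • c + Q c • d = 0 := hNa _ (N.add_mem (N.smul_mem r hc) (N.smul_mem _ hd)) (by
      simp only [q_add hQ, q_smul hQ, map_smul, LinearMap.smul_apply, smul_eq_mul, hdc]
      linear_combination -(Q c) * hr)
    have hQc : Q c ≠ 0 := fun h => hc0 (hNa c hc h)
    have h1 := congrArg (bform hQ c) h0
    rw [map_add, map_smul, map_smul, hdc, b_self hQ, smul_zero, add_zero, map_zero, smul_eq_mul] at h1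
    have hr0 : r = 0 := (mul_eq_zero.1 h1).resolve_right (mul_ne_zero h2 hQc)
    rw [hr0, zero_smul, zero_add] at h0
    exact hd0 ((smul_eq_zero.1 h0).resolve_left hQc)
  obtain ⟨c, hc, hac, hcQ, hcs⟩ := hperp M hM han a haM ha0
  obtain ⟨d, hd, hbd, hdQ, hds⟩ := hperp M' hM' han' b hbM (fun h => hbQ0 (by rw [h, q_zero hQ]))
  have hch : ringChar F ≠ 2 := fun hch => h2 (by
    haveI : CharP F 2 := ringChar.of_eq hch
    exact CharTwo.two_eq_zero)
  obtain ⟨r, hr⟩ : IsSquare ((-(Q a * Q c)) * (-(Q b * Q d))) := by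
    have hx : -(Q a * Q c) ≠ 0 := neg_ne_zero.2 (mul_ne_zero haQ hcQ)
    have hy : -(Q b * Q d) ≠ 0 := neg_ne_zero.2 (mul_ne_zero hbQ0 hdQ)
    rw [← quadraticChar_one_iff_isSquare (mul_ne_zero hx hy), map_mul,
      (quadraticChar_neg_one_iff_not_isSquare).2 hcs, (quadraticChar_neg_one_iff_not_isSquare).2 hds]
    norm_num
  refine key c ((r / (Q a * Q d)) • d) hc (M'.smul_mem _ hd) ?_ (by
    rw [hac, map_smul, hbd, smul_zero, add_zero]) fun h => ?_
  · rw [q_smul hQ]
    field_simp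
    linear_combination -hr + (Q a * Q c * Q d) * hbQ
  · obtain ⟨t, rfl⟩ := Submodule.mem_span_singleton.1 h
    rw [map_smul, b_self hQ, smul_eq_mul] at hac
    rw [(mul_eq_zero.1 hac).resolve_right (mul_ne_zero h2 haQ), zero_smul, q_zero hQ] at hcQ
    exact hcQ rfl

omit [Finite F] in
/-- A totally singular four-space from two singular planes in orthogonal subspaces. -/
lemma ts_sup {A B : Submodule F (ι → F)} (hA : ∀ x ∈ A, Q x = 0) (hB : ∀ x ∈ B, Q x = 0)
    (h : ∀ x ∈ A, ∀ y ∈ B, bform hQ x y = 0) : ∀ x ∈ A ⊔ B, Q x = 0 := by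
  intro x hx
  obtain ⟨a, ha, b, hb, rfl⟩ := Submodule.mem_sup.1 hx
  rw [q_add hQ, hA a ha, hB b hb, h a ha b hb, add_zero, add_zero]

omit [Finite F] in
lemma finrank_sup_of_sep {A B W : Submodule F (ι → F)} (hW : ∀ x ∈ W, x ∈ perp hQ W → x = 0)
    (hAW : A ≤ W) (hBV : B ≤ perp hQ W) : finrank F ↥(A ⊔ B) = finrank F A + finrank F B := by
  have h0 : A ⊓ B = ⊥ := (Submodule.eq_bot_iff _).2 fun x hx => hW x (hAW hx.1) (hBV hx.2)
  have h := Submodule.finrank_sup_add_finrank_inf_eq A B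
  rw [h0, finrank_bot, add_zero] at h
  exact h

/-- A four-space splits as a hyperbolic pair and a plane. -/
lemma exists_split {W : Submodule F (ι → F)} (hW : ∀ x ∈ W, x ∈ perp hQ W → x = 0) (hd : finrank F W = 4) :
    ∃ e ∈ W, ∃ M ≤ W, e ≠ 0 ∧ Q e = 0 ∧ e ∉ M ∧ finrank F M = 2 ∧ (∀ x ∈ M, x ∈ perp hQ M → x = 0) ∧
      ∀ x ∈ M, bform hQ e x = 0 := by
  obtain ⟨e, he, he0, heQ⟩ := exists_singular hQ (S := W) (by omega)
  obtain ⟨x, hx, hxe⟩ := exists_mem_b_ne_zero hQ (fun h => he0 (hW e he h))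
  set f := (bform hQ x e)⁻¹ • x with hf
  have hfe : bform hQ f e = 1 := by
    rw [hf, map_smul, LinearMap.smul_apply, smul_eq_mul, inv_mul_cancel₀ hxe]
  have hee : bform hQ e e = 0 := b_self_eq_zero hQ heQ
  have hfW : f ∈ W := W.smul_mem _ hx
  set P := Submodule.span F {e} ⊔ Submodule.span F {f} with hP
  have hPW : P ≤ W := sup_le ((Submodule.span_singleton_le_iff_mem _ _).2 he)
    ((Submodule.span_singleton_le_iff_mem _ _).2 hfW)
  set M := W ⊓ perp hQ P with hMdef
  have hcomb : ∀ y ∈ W, ∃ s t : F, y - s • e - t • f ∈ M := fun y hy => by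
    refine ⟨bform hQ f y - bform hQ e y * bform hQ f f, bform hQ e y,
      W.sub_mem (W.sub_mem hy (W.smul_mem _ he)) (W.smul_mem _ hfW), (mem_perp_pair hQ).2 ⟨?_, ?_⟩⟩
    · simp only [map_sub, map_smul, hee, b_symm hQ e f, hfe, smul_eq_mul]; ring
    · simp only [map_sub, map_smul, hfe, smul_eq_mul]; ring
  have hperpM : ∀ x ∈ M, bform hQ e x = 0 ∧ bform hQ f x = 0 := fun x hx => (mem_perp_pair hQ).1 hx.2
  have hMr : ∀ x ∈ M, x ∈ perp hQ M → x = 0 := fun x hx hx' => hW x hx.1 fun y hy => by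
    obtain ⟨s, t, h⟩ := hcomb y hy
    have h1 := hx' _ h
    simpa [-bform_apply, (hperpM x hx).1, (hperpM x hx).2] using h1
  have hsup : P ⊔ M = W := le_antisymm (sup_le hPW inf_le_left) fun y hy => by
    obtain ⟨s, t, h⟩ := hcomb y hy
    exact Submodule.mem_sup.2 ⟨s • e + t • f, Submodule.add_mem_sup
      (Submodule.smul_mem _ s (Submodule.mem_span_singleton_self e))
      (Submodule.smul_mem _ t (Submodule.mem_span_singleton_self f)), _, h, by abel⟩
  have h1 := finrank_span_pair_le hQ e f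
  rw [← hP] at h1
  have h2 := Submodule.finrank_add_le_finrank_add_finrank P M
  rw [hsup] at h2
  have h3 : finrank F P = 2 := by
    refine le_antisymm h1 ?_
    have hlt : Submodule.span F {e} < P := lt_of_le_of_ne le_sup_left fun heq => by
      obtain ⟨r, hr⟩ := Submodule.mem_span_singleton.1
        (heq.ge (Submodule.mem_sup_right (Submodule.mem_span_singleton_self f)))
      rw [← hr, map_smul, LinearMap.smul_apply, hee, smul_zero] at hfe
      exact zero_ne_one hfe
    have := Submodule.finrank_lt_finrank_of_lt hlt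
    rw [finrank_span_singleton he0] at this
    omega
  have h4 := Submodule.finrank_sup_add_finrank_inf_eq P M
  have h5 : P ⊓ M = ⊥ := (Submodule.eq_bot_iff _).2 fun y hy => by
    obtain ⟨_, h1', _, h2', rfl⟩ := Submodule.mem_sup.1 hy.1
    obtain ⟨s, rfl⟩ := Submodule.mem_span_singleton.1 h1'
    obtain ⟨t, rfl⟩ := Submodule.mem_span_singleton.1 h2'
    obtain ⟨e1, e2⟩ := hperpM _ hy.2
    simp only [map_add, map_smul, hee, b_symm hQ e f, hfe, smul_eq_mul, mul_zero, mul_one, zero_add] at e1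
    simp only [map_add, map_smul, hfe, smul_eq_mul, e1, zero_mul, mul_one, add_zero] at e2
    rw [e1, e2, zero_smul, zero_smul, add_zero]
  rw [hsup, h5, finrank_bot] at h4
  refine ⟨e, he, M, inf_le_left, he0, heQ, fun h => ?_, by omega, hMr, fun x hx => (hperpM x hx).1⟩
  have := (hperpM e h).2
  rw [hfe] at this
  exact one_ne_zero this

/-- In minus type exactly one of two orthogonal four-dimensional halves has a singular line. -/
theorem halves_types (hminus : ¬ IsPlusTypeOn Q ⊤) (hn : Fintype.card ι = 8) {W : Submodule F (ι → F)}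
    (hW : ∀ x ∈ W, x ∈ perp hQ W → x = 0) (hWd : finrank F W = 4) :
    ((∀ x ∈ W, ∀ y ∈ W, Q x = 0 → Q y = 0 → bform hQ x y = 0 → y ≠ 0 → x ∈ Submodule.span F {y}) ∧
      ∃ L ≤ perp hQ W, (∀ x ∈ L, Q x = 0) ∧ finrank F L = 2) ∨
    ((∀ x ∈ perp hQ W, ∀ y ∈ perp hQ W, Q x = 0 → Q y = 0 → bform hQ x y = 0 → y ≠ 0 →
        x ∈ Submodule.span F {y}) ∧
      ∃ L ≤ W, (∀ x ∈ L, Q x = 0) ∧ finrank F L = 2) := by
  set V := perp hQ W with hVdef
  have hVd : finrank F V = 4 := by
    have := finrank_perp_add hQ W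
    rw [← hVdef] at this
    omega
  have hV : ∀ x ∈ V, x ∈ perp hQ V → x = 0 := fun x hx hx' => hW x (by rwa [hVdef, perp_perp hQ] at hx') hx
  have hWV : ∀ x ∈ W, ∀ y ∈ V, bform hQ x y = 0 := fun x hx y hy => hy x hx
  have hno : ∀ A : Submodule F (ι → F), (∀ x ∈ A, Q x = 0) → finrank F A ≠ 4 := fun A hA h =>
    hminus ⟨A, le_top, hA, by rw [h, finrank_top, finrank_fintype_fun_eq_card, hn]⟩
  have hline : ∀ X : Submodule F (ι → F), (∀ x ∈ X, ∀ y ∈ X, Q x = 0 → Q y = 0 → bform hQ x y = 0 → y ≠ 0 →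
      x ∈ Submodule.span F {y}) ∨ ∃ L ≤ X, (∀ x ∈ L, Q x = 0) ∧ finrank F L = 2 := fun X => by
    refine or_iff_not_imp_left.2 fun h => ?_
    push Not at h
    obtain ⟨x, hx, y, hy, hxQ, hyQ, hxy, hy0, hxN⟩ := h
    refine ⟨Submodule.span F {y} ⊔ Submodule.span F {x}, sup_le ((Submodule.span_singleton_le_iff_mem _ _).2 hy)
      ((Submodule.span_singleton_le_iff_mem _ _).2 hx), ts_sup hQ (fun z hz => ?_) (fun z hz => ?_) ?_,
      le_antisymm (finrank_span_pair_le hQ y x) ?_⟩
    · obtain ⟨s, rfl⟩ := Submodule.mem_span_singleton.1 hz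
      rw [q_smul hQ, hyQ, mul_zero]
    · obtain ⟨s, rfl⟩ := Submodule.mem_span_singleton.1 hz
      rw [q_smul hQ, hxQ, mul_zero]
    · intro z hz w hw
      obtain ⟨s, rfl⟩ := Submodule.mem_span_singleton.1 hz
      obtain ⟨t, rfl⟩ := Submodule.mem_span_singleton.1 hw
      simp only [map_smul, LinearMap.smul_apply, b_symm hQ y x, hxy, smul_zero]
    · have := Submodule.finrank_lt_finrank_of_lt (lt_of_le_of_ne le_sup_left fun heq =>
        hxN (heq.ge (Submodule.mem_sup_right (Submodule.mem_span_singleton_self x))) :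
          Submodule.span F {y} < Submodule.span F {y} ⊔ Submodule.span F {x})
      rw [finrank_span_singleton hy0] at this
      omega
  rcases hline W, hline V with ⟨hWl | ⟨L, hL, hLQ, hLd⟩, hVl | ⟨L', hL', hL'Q, hL'd⟩⟩
  · exfalso
    obtain ⟨e, he, M, hMW, he0, heQ, heM, hMd, hMr, heMb⟩ := exists_split hQ hW hWd
    obtain ⟨e', he', M', hM'V, he'0, he'Q, he'M, hM'd, hM'r, he'Mb⟩ := exists_split hQ hV hVd
    have han : ∀ (X M : Submodule F (ι → F)) (e : ι → F), e ∈ X → e ≠ 0 → Q e = 0 → e ∉ M → M ≤ X →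
        (∀ x ∈ M, bform hQ e x = 0) → (∀ x ∈ X, ∀ y ∈ X, Q x = 0 → Q y = 0 → bform hQ x y = 0 → y ≠ 0 →
          x ∈ Submodule.span F {y}) → ∀ x ∈ M, Q x = 0 → x = 0 := by
      intro X M e he he0 heQ heM hMX heMb hXl x hx hxQ
      obtain ⟨t, rfl⟩ := Submodule.mem_span_singleton.1
        (hXl x (hMX hx) e he hxQ heQ (by rw [b_symm hQ]; exact heMb x hx) he0)
      by_contra h0
      exact heM ((M.smul_mem_iff fun ht => h0 (by rw [ht, zero_smul])).1 hx)
    obtain ⟨L, hL, hLQ, hLd⟩ := exists_ts_plane_of_aniso hQ hMd hM'd hMr hM'r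
      (han W M e he he0 heQ heM hMW heMb hWl) (han V M' e' he' he'0 he'Q he'M hM'V he'Mb hVl)
      (fun x hx y hy => hWV x (hMW hx) y (hM'V hy))
    set E := Submodule.span F {e} ⊔ Submodule.span F {e'} with hE
    have hEd : finrank F E = 2 := by
      rw [hE, finrank_sup_of_sep hQ hW ((Submodule.span_singleton_le_iff_mem _ _).2 he)
        ((Submodule.span_singleton_le_iff_mem _ _).2 he'), finrank_span_singleton he0, finrank_span_singleton he'0]
    have hEQ : ∀ x ∈ E, Q x = 0 := fun x hx => by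
      obtain ⟨_, h1, _, h2, rfl⟩ := Submodule.mem_sup.1 hx
      obtain ⟨s, rfl⟩ := Submodule.mem_span_singleton.1 h1
      obtain ⟨t, rfl⟩ := Submodule.mem_span_singleton.1 h2
      simp [-bform_apply, q_add hQ, q_smul hQ, heQ, he'Q, hWV e he e' he']
    refine hno (L ⊔ E) (ts_sup hQ hLQ hEQ fun x hx y hy => ?_) ?_
    · obtain ⟨m, hm, m', hm', rfl⟩ := Submodule.mem_sup.1 (hL hx)
      obtain ⟨_, h1, _, h2, rfl⟩ := Submodule.mem_sup.1 hy
      obtain ⟨s, rfl⟩ := Submodule.mem_span_singleton.1 h1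
      obtain ⟨t, rfl⟩ := Submodule.mem_span_singleton.1 h2
      simp [-bform_apply, b_symm hQ m e, heMb m hm, b_symm hQ m' e', he'Mb m' hm', hWV m (hMW hm) e' he',
        b_symm hQ m' e, hWV e he m' (hM'V hm')]
    · have h0 : L ⊓ E = ⊥ := (Submodule.eq_bot_iff _).2 fun z hz => by
        obtain ⟨m, hm, m', hm', rfl⟩ := Submodule.mem_sup.1 (hL hz.1)
        obtain ⟨_, h1, _, h2, h12⟩ := Submodule.mem_sup.1 hz.2
        obtain ⟨s, rfl⟩ := Submodule.mem_span_singleton.1 h1
        obtain ⟨t, rfl⟩ := Submodule.mem_span_singleton.1 h2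
        have hd : m - s • e = t • e' - m' := by linear_combination (norm := module) -h12
        have hz0 := hW _ (W.sub_mem (hMW hm) (W.smul_mem s he))
          (hd ▸ V.sub_mem (V.smul_mem t he') (hM'V hm'))
        have hs : s = 0 := by
          by_contra hs
          exact heM ((M.smul_mem_iff hs).1 (sub_eq_zero.1 hz0 ▸ hm))
        have hm0 : m = 0 := by rw [sub_eq_zero.1 hz0, hs, zero_smul]
        rw [hm0, hs, zero_smul, sub_zero] at hd
        have ht : t = 0 := by
          by_contra ht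
          exact he'M ((M'.smul_mem_iff ht).1 (by rw [sub_eq_zero.1 hd.symm]; exact hm'))
        rw [ht, zero_smul, zero_sub, eq_comm, neg_eq_zero] at hd
        rw [hm0, hd, add_zero]
      have h := Submodule.finrank_sup_add_finrank_inf_eq L E
      rw [h0, finrank_bot, hLd, hEd] at h
      omega
  · exact Or.inl ⟨hWl, L', hL', hL'Q, hL'd⟩
  · exact Or.inr ⟨hVl, L, hL, hLQ, hLd⟩
  · refine absurd ?_ (hno (L ⊔ L') (ts_sup hQ hLQ hL'Q fun x hx y hy => hWV x (hL hx) y (hL' hy)))
    rw [finrank_sup_of_sep hQ hW hL hL', hLd, hL'd]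

end CfsgLib.OrthEight96
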